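import Cfsg.Agent.CSixNineU.Basic

/-!
First consequences of the generators: block elements and similitudes among the weight normalising
matrices.
-/

set_option autoImplicit false
set_option linter.unusedSectionVars false

namespace Cfsg.Agent.CSixNineU

open Matrix Cfsg.Agent.CSixNine
open Cfsg.Agent.Classical.U (SqField)
open scoped MatrixGroups Matrix Kronecker

variable {F : Type*} [Field F] {q : ℕ} {ω : F} {G : Subgroup (GL I9 F)}

namespace Gen

lemma smul (hG : Gen q ω G) {c : F} (hc : c ≠ 0) {A : Matrix I9 I9 F} (hA : InG G A) :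
    InG G (c • A) := by
  simpa using (hG.scal c hc).mul hA

lemma sw_mem (hG : Gen q ω G) {A : Matrix I9 I9 F} (hA : InG G A) : InG G (sw A) :=
  hG.swp.conj hA (swM_mul A)

lemma lft_P (hG : Gen q ω G) (v : K3 × K3) : InG G (P3 ω v ⊗ₖ (1 : Matrix K3 K3 F)) := by
  have hpow : ∀ (w : K3 × K3), InG G (P3 ω w ⊗ₖ (1 : Matrix K3 K3 F)) → ∀ n : ℕ,
      InG G (P3 ω (n • w) ⊗ₖ (1 : Matrix K3 K3 F)) := by
    intro w hw n
    induction n with
    | zero => simpa [Matrix.one_kronecker_one] using (InG.one : InG G 1)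
    | succ n ih =>
      have := hG.smul (inv_ne_zero (hG.om.wp_ne_zero (-(w.1 * (n • w).2)))) (ih.mul hw)
      rwa [kron_mul, Matrix.one_mul, P3_mul hG.om, Matrix.smul_kronecker, smul_smul,
        inv_mul_cancel₀ (hG.om.wp_ne_zero _), one_smul, ← succ_nsmul] at this
  have := hG.smul (inv_ne_zero (hG.om.wp_ne_zero (-((v.2.val • ((0 : K3), (1 : K3))).1 *
      (v.1.val • ((1 : K3), (0 : K3))).2))))
    ((hpow _ hG.lX v.1.val).mul (hpow _ hG.lY v.2.val))
  rwa [kron_mul, Matrix.one_mul, P3_mul hG.om, Matrix.smul_kronecker, smul_smul,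
    inv_mul_cancel₀ (hG.om.wp_ne_zero _), one_smul,
    val_smul_basis v] at this

/-- Every weight normalising matrix acts on each factor inside `G`. -/
lemma lft_nrm (hG : Gen q ω G) {g : Matrix K3 K3 F} (hg : IsUnit g) (h : Nrm3 ω g) :
    InG G (g ⊗ₖ (1 : Matrix K3 K3 F)) := by
  obtain ⟨s, a, b, c, d, e, rfl⟩ := nrm3_word hG.om hg h
  have hs : s ≠ 0 := by
    rintro rfl
    rw [zero_smul] at hg
    exact hg.ne_zero rfl
  have hp : ∀ (A : Matrix K3 K3 F), InG G (A ⊗ₖ (1 : Matrix K3 K3 F)) → ∀ n : ℕ,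
      InG G ((A ^ n) ⊗ₖ (1 : Matrix K3 K3 F)) := by
    intro A hA n
    induction n with
    | zero => simpa [Matrix.one_kronecker_one] using (InG.one : InG G 1)
    | succ n ih =>
      rw [pow_succ, show (A ^ n * A) ⊗ₖ (1 : Matrix K3 K3 F) =
        ((A ^ n) ⊗ₖ (1 : Matrix K3 K3 F)) * (A ⊗ₖ (1 : Matrix K3 K3 F)) by
          rw [kron_mul, Matrix.one_mul]]
      exact ih.mul hA
  rw [Matrix.smul_kronecker]
  refine hG.smul hs ?_
  have := ((((hp _ hG.lT a).mul (hp _ hG.lF b)).mul (hp _ hG.lT c)).mul (hp _ hG.lF d)).mul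
    (hG.lft_P e)
  simpa only [kron_mul, Matrix.one_mul] using this

lemma rep_mem (hG : Gen q ω G) {g : Matrix K3 K3 F} (h : InG G (g ⊗ₖ (1 : Matrix K3 K3 F))) :
    InG G ((1 : Matrix K3 K3 F) ⊗ₖ g) := by
  have := hG.sw_mem h
  rwa [sw_kronecker] at this

lemma rep_P (hG : Gen q ω G) (v : K3 × K3) : InG G ((1 : Matrix K3 K3 F) ⊗ₖ P3 ω v) :=
  hG.rep_mem (hG.lft_P v)

end Gen

namespace Gen

variable (hG : Gen q ω G)
include hG

lemma translate {g : K3 → Matrix K3 K3 F} (hg : InG G (blk g)) (t : K3) :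
    InG G (blk fun i => g (i - t)) :=
  (hG.lft_P (0, t)).conj hg (shift_blk ω t g)

lemma rep_blk {A : Matrix K3 K3 F} (hA : InG G (A ⊗ₖ (1 : Matrix K3 K3 F))) :
    InG G (blk fun _ => A) := by
  rw [blk_const]; exact hG.rep_mem hA

lemma comp_gen (i : K3) :
    (∀ c : F, c ≠ 0 → InG (comp G i) (c • 1)) ∧ InG (comp G i) (P3 ω (1, 0)) ∧
      InG (comp G i) (P3 ω (0, 1)) ∧ InG (comp G i) (tauM ω) ∧ InG (comp G i) (fourM ω) := by
  have k : ∀ A : Matrix K3 K3 F, InG G (A ⊗ₖ (1 : Matrix K3 K3 F)) → InG (comp G i) A :=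
    fun A hA => mem_comp (hG.rep_blk hA) i
  refine ⟨fun c hc => ?_, k _ hG.lX, k _ hG.lY, k _ hG.lT, k _ hG.lF⟩
  refine mem_comp (g := fun _ => c • 1) ?_ i
  rw [← blk_smul, blk_one]
  exact hG.scal c hc

end Gen

lemma Sim.one (hF : SqField F q) {ι : Type} [Fintype ι] [DecidableEq ι] :
    Sim q (1 : Matrix ι ι F) := (Uni.one hF).sim

lemma wp_pow_q (hω : CSixNine.Omega ω) (hconj : ω ^ q = ω ^ 2) (a : K3) :
    wp ω a ^ q * wp ω a = 1 := by
  rw [wp, ← pow_mul, mul_comm a.val q, pow_mul, hconj, ← pow_mul, ← pow_add,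
    show 2 * a.val + a.val = 3 * a.val by ring, pow_mul, hω.cube, one_pow]

lemma uni_P3 (hF : SqField F q) (hω : CSixNine.Omega ω) (hconj : ω ^ q = ω ^ 2) (v : K3 × K3) :
    Uni q (P3 ω v) := by
  ext i k
  rw [Matrix.mul_apply, Finset.sum_eq_single (i + v.2)]
  · simp only [star'_apply, P3_apply, if_true]
    by_cases h : i = k
    · subst h
      rw [if_pos rfl, Matrix.one_apply_eq, wp_pow_q hω hconj]
    · rw [if_neg (fun e => h (add_right_cancel e)), Matrix.one_apply_ne h, mul_zero]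
  · intro b _ hb
    simp [P3_apply, hb, hF.q_ne_zero]
  · simp

lemma uni_tau (hF : SqField F q) (hω : CSixNine.Omega ω) (hconj : ω ^ q = ω ^ 2) :
    Uni q (tauM ω) := by
  rw [Uni, tau_eq, star'_diagonal hF, Matrix.diagonal_mul_diagonal, ← Matrix.diagonal_one]
  congr 1; funext i
  exact wp_pow_q hω hconj _

lemma sim_four (hF : SqField F q) (hω : CSixNine.Omega ω) (hconj : ω ^ q = ω ^ 2) :
    Sim q (fourM ω) := by
  refine ⟨3, hω.three, ?_⟩
  ext i k
  rw [Matrix.mul_apply, Matrix.smul_apply, smul_eq_mul]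
  have e : ∀ x : K3, star' q (fourM ω) i x * fourM ω x k = wp ω (x * (k - i)) := by
    intro x
    simp only [star'_apply, fourM, Matrix.of_apply]
    have h := wp_pow_q (q := q) hω hconj (x * i)
    rw [show x * (k - i) = x * k + -(x * i) by ring, hω.wp_add]
    have hn : wp ω (x * i) ^ q = wp ω (-(x * i)) := by
      refine mul_right_cancel₀ (hω.wp_ne_zero (x * i)) ?_
      rw [h, ← hω.wp_add, neg_add_cancel, wp_zero]
    rw [hn]; ring
  simp only [e, sum_wp hω, sub_eq_zero, Matrix.one_apply]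
  by_cases h : i = k <;> simp [h, Ne.symm]

lemma Sim.pow (hF : SqField F q) {A : Matrix K3 K3 F} (hA : Sim q A) (n : ℕ) : Sim q (A ^ n) := by
  induction n with
  | zero => rw [pow_zero]; exact Sim.one hF
  | succ n ih => rw [pow_succ]; exact ih.mul hF hA

lemma sim_nrm3 (hF : SqField F q) (hω : CSixNine.Omega ω) (hconj : ω ^ q = ω ^ 2)
    {A : Matrix K3 K3 F} (hA : IsUnit A) (h : Nrm3 ω A) : Sim q A := by
  obtain ⟨s, a, b, c, d, e, rfl⟩ := nrm3_word hω hA h
  have hs : s ≠ 0 := by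
    rintro rfl
    rw [zero_smul] at hA
    exact hA.ne_zero rfl
  have ht := (uni_tau hF hω hconj).sim
  have hf := sim_four hF hω hconj
  exact (((((ht.pow hF a).mul hF (hf.pow hF b)).mul hF (ht.pow hF c)).mul hF (hf.pow hF d)).mul hF
    (uni_P3 hF hω hconj e).sim).smul hs

/-- The blocks of a similitude are similitudes. -/
lemma sim_block (hF : SqField F q) {g : K3 → Matrix K3 K3 F} (h : Sim q (blk g)) (i : K3) :
    Sim q (g i) := by
  obtain ⟨c, hc, e⟩ := h
  refine ⟨c, hc, ?_⟩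
  rw [star'_blk hF, blk_mul, ← blk_one, blk_smul] at e
  exact congrFun (blk_inj e) i

lemma Gen.sim_mem (hG : Gen q ω G) {A : Matrix I9 I9 F} (hA : InG G A) : Sim q A := by
  obtain ⟨g, hg, rfl⟩ := hA
  exact hG.sim g hg

lemma Gen.sim_comp (hG : Gen q ω G) (i : K3) : ∀ a ∈ comp G i, Sim q (a : Matrix K3 K3 F) := by
  rintro a ⟨g, hg, e⟩
  rw [← e]
  exact sim_block hG.fld (hG.sim_mem hg) i

end Cfsg.Agent.CSixNineU
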