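import Cfsg.Agent.CSixNine.Main
import Cfsg.Agent.Classical.UBasic

/-!
The unitary setting for overgroups of the weight normaliser in dimension nine: conjugate transpose,
isometries and similitudes of the standard hermitian form.
-/

set_option autoImplicit false
set_option linter.unusedSectionVars false

namespace Cfsg.Agent.CSixNineU

open Matrix Cfsg.Agent.CSixNine
open Cfsg.Agent.Classical.U (SqField)
open scoped MatrixGroups Matrix Kronecker

variable {F : Type*} [Field F] {q : ℕ} {ι κ μ : Type} [Fintype ι] [Fintype κ] [Fintype μ]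
  [DecidableEq ι] [DecidableEq κ] [DecidableEq μ]

/-- The conjugate transpose. -/
def star' (q : ℕ) (A : Matrix ι κ F) : Matrix κ ι F := (A.map (· ^ q))ᵀ

/-- An isometry of the standard hermitian form. -/
def Uni (q : ℕ) (A : Matrix ι ι F) : Prop := star' q A * A = 1

/-- A similitude of the standard hermitian form. -/
def Sim (q : ℕ) (A : Matrix ι ι F) : Prop := ∃ c : F, c ≠ 0 ∧ star' q A * A = c • 1

@[simp] lemma star'_apply (A : Matrix ι κ F) (i : κ) (j : ι) : star' q A i j = A j i ^ q := rfl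

lemma star'_mul (hF : SqField F q) (A : Matrix ι κ F) (B : Matrix κ μ F) :
    star' q (A * B) = star' q B * star' q A := by
  ext i j
  simp only [star'_apply, Matrix.mul_apply, hF.sum_pow, mul_pow]
  exact Finset.sum_congr rfl fun x _ => mul_comm _ _

lemma star'_one (hF : SqField F q) : star' q (1 : Matrix ι ι F) = 1 := by
  ext i j
  by_cases h : i = j
  · subst h; simp
  · simp [h, Ne.symm h, hF.q_ne_zero]

lemma star'_smul (c : F) (A : Matrix ι κ F) : star' q (c • A) = c ^ q • star' q A := by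
  ext i j; simp [mul_pow]

lemma star'_add (hF : SqField F q) (A B : Matrix ι κ F) :
    star' q (A + B) = star' q A + star' q B := by
  ext i j; simp [hF.add_pow]

lemma star'_kronecker (A : Matrix K3 K3 F) (B : Matrix K3 K3 F) :
    star' q (A ⊗ₖ B) = star' q A ⊗ₖ star' q B := by
  ext i j; simp [mul_pow]

lemma star'_diagonal (hF : SqField F q) (d : ι → F) :
    star' q (Matrix.diagonal d) = Matrix.diagonal fun i => d i ^ q := by
  ext i j
  by_cases h : i = j
  · subst h; simp
  · simp [h, Ne.symm h, hF.q_ne_zero]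

lemma star'_blk (hF : SqField F q) (g : K3 → Matrix K3 K3 F) :
    star' q (blk g) = blk fun i => star' q (g i) := by
  ext ⟨i, a⟩ ⟨k, b⟩
  by_cases h : i = k
  · subst h; simp [blk]
  · simp [blk, h, Ne.symm h, hF.q_ne_zero]

lemma Uni.one (hF : SqField F q) : Uni q (1 : Matrix ι ι F) := by
  rw [Uni, star'_one hF, one_mul]

lemma Uni.mul (hF : SqField F q) {A B : Matrix ι ι F} (hA : Uni q A) (hB : Uni q B) :
    Uni q (A * B) := by
  rw [Uni, star'_mul hF, Matrix.mul_assoc, ← Matrix.mul_assoc (star' q A), hA, Matrix.one_mul, hB]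

lemma Uni.of_mul_eq_one (hF : SqField F q) {A B : Matrix ι ι F} (hA : Uni q A) (h : A * B = 1) :
    Uni q B := by
  have e : B = star' q A := by
    calc B = star' q A * A * B := by rw [hA, Matrix.one_mul]
      _ = star' q A := by rw [Matrix.mul_assoc, h, Matrix.mul_one]
  have h2 : star' q B * star' q A = 1 := by rw [← star'_mul hF, h, star'_one hF]
  rw [Uni]; nth_rewrite 2 [e]; exact h2

lemma Uni.sim {A : Matrix ι ι F} (hA : Uni q A) : Sim q A :=
  ⟨1, one_ne_zero, by rw [one_smul]; exact hA⟩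

lemma Sim.mul (hF : SqField F q) {A B : Matrix ι ι F} (hA : Sim q A) (hB : Sim q B) :
    Sim q (A * B) := by
  obtain ⟨c, hc, e⟩ := hA
  obtain ⟨d, hd, e'⟩ := hB
  refine ⟨c * d, mul_ne_zero hc hd, ?_⟩
  rw [star'_mul hF, Matrix.mul_assoc, ← Matrix.mul_assoc (star' q A), e, Matrix.smul_mul,
    Matrix.one_mul, Matrix.mul_smul, e', smul_smul]

lemma Sim.smul {A : Matrix ι ι F} (hA : Sim q A) {a : F} (ha : a ≠ 0) : Sim q (a • A) := by
  obtain ⟨c, hc, e⟩ := hA
  refine ⟨a ^ q * a * c, mul_ne_zero (mul_ne_zero (pow_ne_zero _ ha) ha) hc, ?_⟩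
  rw [star'_smul, Matrix.smul_mul, Matrix.mul_smul, e, smul_smul, smul_smul]

lemma Sim.of_mul_eq_one (hF : SqField F q) {A B : Matrix ι ι F} (hA : Sim q A) (h : A * B = 1) :
    Sim q B := by
  obtain ⟨c, hc, e⟩ := hA
  refine ⟨c⁻¹, inv_ne_zero hc, ?_⟩
  have hs : star' q B * star' q A = 1 := by rw [← star'_mul hF, h, star'_one hF]
  have e2 : star' q A = c • B := by
    calc star' q A = star' q A * A * B := by rw [Matrix.mul_assoc, h, Matrix.mul_one]
      _ = c • B := by rw [e, Matrix.smul_mul, Matrix.one_mul]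
  rw [e2, Matrix.mul_smul] at hs
  calc star' q B * B = c⁻¹ • (c • (star' q B * B)) := by rw [smul_smul, inv_mul_cancel₀ hc, one_smul]
    _ = c⁻¹ • (1 : Matrix ι ι F) := by rw [hs]

/-- Generators of the weight normaliser inside an overgroup of similitudes. -/
structure Gen (q : ℕ) (ω : F) (G : Subgroup (GL I9 F)) : Prop where
  fld : SqField F q
  prime : q.Prime
  five : 5 ≤ q
  conj : ω ^ q = ω ^ 2
  om : CSixNine.Omega ω
  two : (2 : F) ≠ 0
  sim : ∀ g ∈ G, Sim q (g : Matrix I9 I9 F)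
  scal : ∀ c : F, c ≠ 0 → InG G (c • 1)
  lX : InG G (P3 ω (1, 0) ⊗ₖ (1 : Matrix K3 K3 F))
  lY : InG G (P3 ω (0, 1) ⊗ₖ (1 : Matrix K3 K3 F))
  lT : InG G (tauM ω ⊗ₖ (1 : Matrix K3 K3 F))
  lF : InG G (fourM ω ⊗ₖ (1 : Matrix K3 K3 F))
  swp : InG G swM
  cx : InG G (blk fun i => P3 ω (i, 0))

/-- The unitary dichotomy in dimension three. -/
def Dicho (q : ℕ) (ω : F) : Prop :=
  ∀ H : Subgroup (GL K3 F), (∀ c : F, c ≠ 0 → InG H (c • 1)) → InG H (P3 ω (1, 0)) →
    InG H (P3 ω (0, 1)) → InG H (tauM ω) → InG H (fourM ω) →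
    (∀ g ∈ H, Sim q (g : Matrix K3 K3 F)) →
    (∀ M, InG H M → Nrm3 ω M) ∨ (∀ M, Uni q M → Matrix.det M = 1 → InG H M)

/-- The overgroup does not contain the special unitary group. -/
def NoSU (q : ℕ) (G : Subgroup (GL I9 F)) : Prop :=
  ¬ ∀ M : Matrix I9 I9 F, Uni q M → Matrix.det M = 1 → InG G M

end Cfsg.Agent.CSixNineU
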