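import Cfsg.Agent.CSixNineU.Norml
import Cfsg.Agent.CSixNine.Invol

/-!
Block diagonal members of an overgroup normalise the weight lines on each block.
-/

set_option autoImplicit false
set_option linter.unusedSectionVars false

namespace Cfsg.Agent.CSixNineU

open Matrix Cfsg.Agent.CSixNine
open Cfsg.Agent.Classical.U (SqField)
open scoped MatrixGroups Matrix Kronecker

variable {F : Type*} [Field F] {q : ℕ} {ω : F} {G : Subgroup (GL I9 F)}

/-- The values on block two of the members trivial on block zero. -/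
def compTwo (G : Subgroup (GL I9 F)) : Subgroup (GL K3 F) where
  carrier := {a | ∃ g : K3 → Matrix K3 K3 F, InG G (blk g) ∧ g 0 = 1 ∧ g 2 = a}
  one_mem' := ⟨fun _ => 1, by rw [blk_one]; exact InG.one, rfl, rfl⟩
  mul_mem' := by
    rintro a b ⟨g, hg, g0, ea⟩ ⟨h, hh, h0, eb⟩
    refine ⟨fun k => g k * h k, by rw [← blk_mul]; exact hg.mul hh, ?_, ?_⟩
    · show g 0 * h 0 = _
      rw [g0, h0, Matrix.one_mul]
    · show g 2 * h 2 = _
      rw [ea, eb]; rfl
  inv_mem' := by
    rintro a ⟨g, hg, g0, ea⟩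
    obtain ⟨B, hB, h1, h2⟩ := hg.exists_inv
    obtain ⟨g', rfl, hg'⟩ := blocks_inv h1 h2
    refine ⟨g', hB, ?_, ?_⟩
    · rw [← hg' 0, g0, Matrix.one_mul]
    · calc g' 2 = ((a⁻¹ : GL K3 F) : Matrix K3 K3 F) * (g 2 * g' 2) := by
            rw [← Matrix.mul_assoc, ea, a.inv_mul, Matrix.one_mul]
        _ = _ := by rw [hg' 2, Matrix.mul_one]

/-- The values on block two of the members trivial elsewhere. -/
def onlyTwo (G : Subgroup (GL I9 F)) : Subgroup (GL K3 F) where
  carrier := {a | InG G (eBlk 2 (a : Matrix K3 K3 F))}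
  one_mem' := by
    show InG G (eBlk 2 ((1 : GL K3 F) : Matrix K3 K3 F))
    rw [Units.val_one, eBlk]
    simp only [ite_self, blk_one]
    exact InG.one
  mul_mem' := by
    intro a b ha hb
    show InG G (eBlk 2 ((a * b : GL K3 F) : Matrix K3 K3 F))
    have := ha.mul hb
    rw [eBlk, eBlk, blk_mul] at this
    convert this using 1
    rw [eBlk]; congr 1; funext i
    by_cases h : i = 2 <;> simp [h]
  inv_mem' := by
    intro a ha
    refine InG.of_mul_eq_one ha ?_
    rw [eBlk, eBlk, blk_mul, ← blk_one]; congr 1; funext i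
    by_cases h : i = 2 <;> simp [h]

lemma uni_Pim (hF : SqField F q) : Uni q (Pim : Matrix K3 K3 F) := by
  have e : star' q (Pim : Matrix K3 K3 F) = Pim := by
    ext i k
    simp only [star'_apply, Pim, Matrix.of_apply, add_comm k i]
    by_cases h : i + k = 0 <;> simp [h, hF.q_ne_zero]
  rw [Uni, e, Pim_sq]

lemma det_Pim : Matrix.det (Pim : Matrix K3 K3 F) = -1 := CSixNine.Pim_det

/-- The action on each block normalises the weight lines. -/
theorem good [Finite F] (hG : Gen q ω G) (hD : Dicho q ω) (hns : NoSU q G)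
    {g : K3 → Matrix K3 K3 F} (hg : InG G (blk g)) (i : K3) : Nrm3 ω (g i) := by
  have hω := hG.om
  have hF := hG.fld
  by_contra hcon
  have hg2 : ¬ Nrm3 ω ((fun k => g (k - (2 - i))) 2) := by
    simpa [show (2 : K3) - (2 - i) = i from by ring] using hcon
  obtain ⟨h1, h2, h3, h4, h5⟩ := hG.comp_gen 2
  rcases hD _ h1 h2 h3 h4 h5 (hG.sim_comp 2) with h | h
  · exact hg2 (h _ (mem_comp (hG.translate hg _) 2))
  -- lifts act on the members trivial on block zero
  have conjTwo : ∀ A M M' : Matrix K3 K3 F, Uni q A → Matrix.det A = 1 → InG (compTwo G) M →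
      A * M = M' * A → InG (compTwo G) M' := by
    rintro A M M' hA hA1 ⟨a, ⟨m, hm, m0, m2⟩, rfl⟩ e
    obtain ⟨l, hl, hl2⟩ := exists_of_comp (h A hA hA1)
    obtain ⟨B, hB, hb1, hb2⟩ := hl.exists_inv
    obtain ⟨l', rfl, hl'⟩ := blocks_inv hb1 hb2
    have hc := (hl.mul hm).mul hB
    rw [blk_mul, blk_mul] at hc
    have e2 : l 2 * m 2 * l' 2 = M' := by
      rw [m2, hl2, e, ← hl2, Matrix.mul_assoc, hl' 2, Matrix.mul_one]
    refine ⟨(isUnit_block hc 2).unit, ⟨_, hc, ?_, (IsUnit.unit_spec _).symm⟩, ?_⟩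
    · show l 0 * m 0 * l' 0 = 1
      rw [m0, Matrix.mul_one, hl' 0]
    · rw [IsUnit.unit_spec]; exact e2
  have conjOnly : ∀ A M M' : Matrix K3 K3 F, Uni q A → Matrix.det A = 1 → InG (onlyTwo G) M →
      A * M = M' * A → InG (onlyTwo G) M' := by
    rintro A M M' hA hA1 ⟨a, ha, rfl⟩ e
    obtain ⟨l, hl, hl2⟩ := exists_of_comp (h A hA hA1)
    have hAu : IsUnit A := hl2 ▸ isUnit_block hl 2
    have hMu : IsUnit M' := by
      obtain ⟨A', hA'⟩ := hAu.exists_right_inv
      have : M' = A * (a : Matrix K3 K3 F) * A' := by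
        rw [e, Matrix.mul_assoc, hA', Matrix.mul_one]
      rw [this]
      exact (hAu.mul a.isUnit).mul (IsUnit.of_mul_eq_one A (mul_eq_one_comm.1 hA'))
    refine ⟨hMu.unit, ?_, hMu.unit_spec⟩
    show InG G (eBlk 2 (hMu.unit : Matrix K3 K3 F))
    rw [IsUnit.unit_spec]
    refine hl.conj ha ?_
    rw [eBlk, eBlk, blk_mul, blk_mul]; congr 1; funext j
    by_cases hj : j = 2
    · subst hj; simp only [↓reduceIte, hl2]; exact e
    · simp [hj]
  have hY : InG (compTwo G) (P3 ω ((0 : K3), (1 : K3))) := by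
    have hy : InG G (blk fun j => P3 ω (0, -j)) :=
      (hG.rep_blk hG.lF).conj hG.cx (by
        rw [blk_mul, blk_mul]; congr 1; funext j; exact four_X hω j)
    exact ⟨(isUnit_P3 hω _).unit, ⟨_, hy, by simp [Prod.mk_zero_zero], by
      rw [IsUnit.unit_spec, show -(2 : K3) = 1 from by decide]⟩, IsUnit.unit_spec _⟩
  have full := normal_three hF hG.prime hG.five (compTwo G) conjTwo hY (uni_P3 hF hω hG.conj _)
    fun c hc => absurd (P3_ne_smul_one hω hc) (by decide)
  obtain ⟨a, ⟨l, hl, l0, l2⟩, ea⟩ := full (-Pim) (by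
    rw [← neg_one_smul F, Uni, star'_smul, Matrix.smul_mul, Matrix.mul_smul, uni_Pim hF, smul_smul,
      hF.neg_pow, one_pow, neg_mul_neg, mul_one, one_smul]) (by
    rw [Matrix.det_neg, det_Pim, ZMod.card]; ring)
  rw [ea] at l2
  -- the commutator with the mixing element
  have hu' : InG G (blk fun j => P3 ω (j - 1, 0)) := hG.translate hG.cx 1
  have hl' : InG G (blk fun j => Cj ω (j - 1, 0) (l j)) :=
    hu'.conj hl (by
      rw [blk_mul, blk_mul]; congr 1; funext j
      exact Cj_mul hω _ _)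
  obtain ⟨B, hB, hb1, hb2⟩ := hl.exists_inv
  obtain ⟨l₁, rfl, hl₁⟩ := blocks_inv hb1 hb2
  have hm := hl'.mul hB
  rw [blk_mul] at hm
  have hblk : (fun j => Cj ω (j - 1, 0) (l j) * l₁ j) =
      fun j => if j = 2 then P3 ω ((2 : K3), (0 : K3)) else 1 := by
    funext j
    obtain rfl | rfl | rfl : j = 0 ∨ j = 1 ∨ j = 2 := by revert j; decide
    · rw [if_neg (by decide)]
      have e : Cj ω ((0 : K3) - 1, (0 : K3)) (l 0) = l 0 := by
        rw [l0]; ext r s
        by_cases hrs : r = s <;> simp [Cj, Matrix.one_apply, hrs]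
      rw [e]; exact hl₁ 0
    · rw [if_neg (by decide)]
      have e : Cj ω ((1 : K3) - 1, (0 : K3)) (l 1) = l 1 := by ext r s; simp [Cj]
      rw [e]; exact hl₁ 1
    · rw [if_pos rfl]
      have e2 : l₁ 2 = -Pim := by
        have := hl₁ 2
        rw [l2] at this
        calc l₁ 2 = -Pim * (-Pim * l₁ 2) := by
              rw [← Matrix.mul_assoc, Matrix.neg_mul, Matrix.mul_neg, neg_neg, Pim_sq, Matrix.one_mul]
          _ = _ := by rw [this, Matrix.mul_one]
      have e1 : Cj ω ((2 : K3) - 1, (0 : K3)) (l 2) = P3 ω ((2 : K3), (0 : K3)) * -Pim := by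
        refine (isUnit_P3 hω ((1 : K3), (0 : K3))).mul_left_inj.1 ?_
        rw [show (2 : K3) - 1 = 1 from by decide, ← Cj_mul hω, l2, Matrix.mul_assoc _ (-Pim),
          Matrix.neg_mul, Pim_P3, Matrix.mul_neg, Matrix.mul_neg, ← Matrix.mul_assoc, P3_mul hω]
        simp [show (2 : K3) + -1 = 1 from by decide]
      rw [e1, e2]
      simp only [Matrix.mul_neg, Matrix.neg_mul, neg_neg, Matrix.mul_assoc, Pim_sq, Matrix.mul_one]
  rw [hblk] at hm
  have hX : InG (onlyTwo G) (P3 ω ((2 : K3), (0 : K3))) :=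
    ⟨(isUnit_P3 hω _).unit, (show InG G (eBlk 2 _) from by rw [IsUnit.unit_spec]; exact hm),
      IsUnit.unit_spec _⟩
  have fullTwo := normal_three hF hG.prime hG.five (onlyTwo G) conjOnly hX (uni_P3 hF hω hG.conj _)
    fun c hc => absurd (P3_ne_smul_one hω hc) (by decide)
  refine hns (su9_of_blocks hF hG.prime hG.five (fun j M hM hM1 => ?_) hG.swp)
  obtain ⟨b, hb, rfl⟩ := fullTwo M hM hM1
  have := hG.translate hb (j - 2)
  convert this using 1
  simp only [eBlk]; congr 1; funext k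
  by_cases hk : k = j
  · subst hk; simp
  · rw [if_neg hk, if_neg]; intro e; exact hk (by linear_combination e)

end Cfsg.Agent.CSixNineU
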