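import Cfsg.Agent.CSixNineU.KerAll
import Cfsg.Agent.CSixNine.CentKer

/-!
The structure of the kernel in an overgroup of similitudes.
-/

set_option autoImplicit false
set_option linter.unusedSectionVars false

namespace Cfsg.Agent.CSixNineU

open Matrix Cfsg.Agent.CSixNine
open scoped MatrixGroups Matrix Kronecker

variable {F : Type*} [Field F] {q : ℕ} {ω : F} {G : Subgroup (GL I9 F)}

section Main

variable [Finite F] (hG : Gen q ω G) (hD : Dicho q ω) (hns : NoSU q G)
include hG hD hns

set_option maxHeartbeats 1000000 in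
/-- Coprime generation by centralisers of the left weight operators. -/
lemma generation_nrm (X : Subgroup (GL I9 F)) (hXG : X ≤ G)
    (hconj : ∀ u : K3 × K3, ∀ g ∈ X, uP hG.om u * g * (uP hG.om u)⁻¹ ∈ X)
    (hcard : ¬ 3 ∣ Nat.card X) : X ≤ N9 hG.om := by
  have hω := hG.om
  haveI : Fact (Nat.Prime 3) := ⟨by norm_num⟩
  set π := QuotientGroup.mk' (Subgroup.center (GL I9 F))
  have hgen : X.map π ≤ (N9 hω).map π := by
    refine Signalizer.le_of_forall_centralizer (p := 3) (A := Aq hω) ?_ ?_ ?_ ?_ ?_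
    · refine ⟨⟨⟨fun ⟨a, v, ha⟩ ⟨b, w, hb⟩ => Subtype.ext ?_⟩⟩, ?_⟩
      · show a * b = b * a
        obtain ⟨c, hc, e⟩ := uP_mul hω v w
        obtain ⟨d, hd, e'⟩ := uP_mul hω w v
        have e1 : π c = 1 := (QuotientGroup.eq_one_iff c).2 hc
        have e2 : π d = 1 := (QuotientGroup.eq_one_iff d).2 hd
        rw [ha, hb, ← map_mul, ← map_mul, e, e', map_mul, map_mul, e1, e2, add_comm]
      · rintro _ ⟨v, rfl⟩
        rw [← map_pow, show uP hω v ^ 3 = 1 from Units.ext (by
          rw [Units.val_pow_eq_pow_val, Units.val_one, coe_uP, kron_pow, pow_succ, pow_two,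
            pow_three_smul hω, Matrix.one_kronecker_one]), map_one]
    · have hinj : Function.Injective (fun v : K3 × K3 =>
          (⟨π (uP hω v), v, rfl⟩ : Aq hω)) := by
        intro v w h
        have h' : π (uP hω v) = π (uP hω w) := congrArg Subtype.val h
        obtain ⟨s, -, hs⟩ := center_scalar hω ((QuotientGroup.eq.1 h'.symm))
        rw [Units.val_mul] at hs
        have := congrArg (fun M => (uP hω w : Matrix I9 I9 F) * M) hs
        simp only [← Matrix.mul_assoc, Units.mul_inv, Matrix.one_mul, Matrix.mul_smul,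
          Matrix.mul_one] at this
        simp only [coe_uP] at this
        exact congrArg Prod.fst (P9_line hω (v := (v, (0 : K3 × K3))) (w := (w, 0)) (c := s)
          (by simpa only [P9, P3_zero] using this))
      calc 3 ^ 2 = Nat.card (K3 × K3) := by simp [Nat.card_prod]
        _ ≤ _ := Nat.card_le_card_of_injective _ hinj
    · rintro _ ⟨v, rfl⟩
      have hmem : uP hω v ∈ Subgroup.normalizer (X : Set (GL I9 F)) := by
        rw [Subgroup.mem_normalizer_iff]
        refine fun g => ⟨hconj v g, fun hg => ?_⟩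
        have h2 := hconj (v + v) _ hg
        obtain ⟨c, hc, e⟩ := uP_mul hω (v + v) v
        have e0 : uP hω (v + v + v) = 1 := Units.ext (by
          rw [coe_uP, three_smul_v, P3_zero, Matrix.one_kronecker_one, Units.val_one])
        rw [e0, one_mul] at e
        have hgc : uP hω (v + v) * (uP hω v * g * (uP hω v)⁻¹) * (uP hω (v + v))⁻¹ = g := by
          calc _ = (uP hω (v + v) * uP hω v) * g * (uP hω (v + v) * uP hω v)⁻¹ := by group
            _ = g := by rw [e, ← Subgroup.mem_center_iff.1 hc g, mul_inv_cancel_right]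
        rwa [hgc] at h2
      exact (Subgroup.le_normalizer_map π) (Subgroup.mem_map_of_mem π hmem)
    · intro h
      exact hcard (h.trans (Subgroup.card_map_dvd (H := X) π))
    · rintro _ ⟨v, rfl⟩ hv q ⟨⟨g, hg, rfl⟩, hq⟩
      replace hq := Subgroup.mem_centralizer_singleton_iff.1 hq
      refine Subgroup.mem_map_of_mem π ?_
      have hg'G := hXG hg
      have hv0 : v ≠ 0 := by
        rintro rfl
        exact hv (by
          rw [show uP hω (0 : K3 × K3) = 1 from Units.ext (by
            rw [coe_uP, P3_zero, Matrix.one_kronecker_one, Units.val_one]), map_one])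
      have hq' : π (g * uP hω v) = π (uP hω v * g) := by
        rw [map_mul, map_mul]
        first | exact hq | exact hq.symm
      obtain ⟨s, -, hs⟩ := center_scalar hω (QuotientGroup.eq.1 hq'.symm)
      show Nrm9 ω (g : Matrix I9 I9 F)
      refine proj_centraliser hG hD hns ⟨g, hg'G, rfl⟩ (r := (v, (0 : K3 × K3)))
        (fun h => hv0 (congrArg Prod.fst h)) (c := s) ?_
      rw [Units.val_mul] at hs
      have := congrArg (fun M => ((uP hω v * g : GL I9 F) : Matrix I9 I9 F) * M) hs
      simp only [← Matrix.mul_assoc, Units.mul_inv, Matrix.one_mul, Matrix.mul_smul,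
        Matrix.mul_one] at this
      simp only [Units.val_mul, coe_uP] at this
      simpa only [P9, P3_zero] using this
  intro g hg
  obtain ⟨n, hn, e⟩ := hgen (Subgroup.mem_map_of_mem π hg)
  obtain ⟨s, -, hs⟩ := center_scalar hω (QuotientGroup.eq.1 e)
  have he : (g : Matrix I9 I9 F) = s • (n : Matrix I9 I9 F) := by
    rw [Units.val_mul] at hs
    have := congrArg (fun M => (n : Matrix I9 I9 F) * M) hs
    simpa only [← Matrix.mul_assoc, Units.mul_inv, Matrix.one_mul, Matrix.mul_smul,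
      Matrix.mul_one] using this
  show Nrm9 ω (g : Matrix I9 I9 F)
  rw [he]; exact Nrm9.smul hn s

set_option maxHeartbeats 1000000 in
/-- The kernel normalises the weight lines, and its elements of order three are conjugate to
`ω² (1 ⊗ τ)` or to its inverse. -/
lemma ker_structure :
    (∀ g ∈ Ker G, Nrm9 ω (g : Matrix I9 I9 F)) ∧
      ∃ z₀ ∈ Ker G, (z₀ : Matrix I9 I9 F) = ω ^ 2 • tk ω ∧ ∀ g : GL I9 F,
        g * z₀ * g⁻¹ ∈ Ker G → ∃ k ∈ Ker G, (k⁻¹ * g) * z₀ = z₀ * (k⁻¹ * g) := by
  have hω := hG.om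
  set K := Ker G with hKdef
  -- the distinguished element of order three
  have hzG : InG G (ω ^ 2 • tk ω) := hG.smul (pow_ne_zero 2 hω.ne_zero) (hG.rep_mem hG.lT)
  obtain ⟨z₀, hz₀G, ez⟩ := hzG
  have hzk : Ck ω (ω ^ 2 • tk ω : Matrix I9 I9 F) := by
    constructor
    · rw [Cp, tk, pj, Matrix.smul_mul, Matrix.mul_smul, kron_mul, kron_mul, Matrix.one_mul]
      congr 2
      ext a b
      rw [tauM, Matrix.diagonal_mul, Matrix.mul_diagonal, Pim, Matrix.of_apply]
      obtain rfl | rfl | rfl := k3_cases a <;> obtain rfl | rfl | rfl := k3_cases b <;>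
        simp (config := { decide := true })
    · rw [Matrix.smul_mul, Matrix.mul_smul]
  have hvz : ω ^ 2 * ω = 1 := by linear_combination hω.cube
  have hfz : fM (ω ^ 2 • tk ω : Matrix I9 I9 F) = 1 := by
    ext i k
    simp [fM, sub3, tk_eq, Matrix.diagonal, Matrix.one_apply, show (1 : K3) ≠ 2 from by decide,
      show (1 : K3) ≠ 0 from by decide, hvz]
  have haz : aM (ω ^ 2 • tk ω : Matrix I9 I9 F) = 1 := by
    ext i k
    simp [aM, sub3, tk_eq, Matrix.diagonal, Matrix.one_apply, show (1 : K3) ≠ 2 from by decide,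
      show (1 : K3) ≠ 0 from by decide, hvz]
  have hbz : bM (ω ^ 2 • tk ω : Matrix I9 I9 F) = ω ^ 2 • 1 := by
    ext i k
    simp [bM, sub3, tk_eq, Matrix.diagonal, Matrix.one_apply]
  set z : K := ⟨z₀, hz₀G, by rw [ez]; exact hzk.1, by rw [ez]; exact hfz⟩ with hz
  -- powers of z
  have hzpow : ∀ n : ℕ, K0 ω G (((z ^ n : K) : GL I9 F) : Matrix I9 I9 F) ∧
      aM (((z ^ n : K) : GL I9 F) : Matrix I9 I9 F) = 1 ∧
      bM (((z ^ n : K) : GL I9 F) : Matrix I9 I9 F) = (ω ^ 2) ^ n • 1 := by
    intro n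
    induction n with
    | zero => simp [K0.one, aM_one, bM_one]
    | succ n ih =>
      have ezz : (((z : K) : GL I9 F) : Matrix I9 I9 F) = ω ^ 2 • tk ω := ez
      have hk1 : K0 ω G (ω ^ 2 • tk ω : Matrix I9 I9 F) := ⟨⟨z₀, hz₀G, ez⟩, hzk, hfz⟩
      rw [pow_succ, Subgroup.coe_mul, Units.val_mul, ezz]
      refine ⟨ih.1.mul hk1, ?_, ?_⟩
      · rw [aM_mul hω ih.1.2.1 hzk, ih.2.1, haz, one_mul]
      · rw [bM_mul hω ih.1.2.1 hzk, ih.2.2, hbz, Matrix.smul_mul, Matrix.one_mul, smul_smul,
          ← pow_succ]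
  have cube1 : (ω ^ 2) ^ 3 = (1 : F) := by rw [← pow_mul, mul_comm, pow_mul, hω.cube, one_pow]
  have hz3 : z ^ 3 = 1 := by
    refine Subtype.ext (Units.ext (ck_ext hω hG.two (hzpow 3).1.2.1 ?_ ?_ ?_ ?_))
    · rw [Subgroup.coe_one, Units.val_one]; exact Ck.one
    · rw [(hzpow 3).1.2.2, Subgroup.coe_one, Units.val_one, fM_one]
    · rw [(hzpow 3).2.1, Subgroup.coe_one, Units.val_one, aM_one]
    · rw [(hzpow 3).2.2, cube1, one_smul, Subgroup.coe_one, Units.val_one, bM_one]
  -- traces separate the powers of z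
  have htr : ∀ g : GL I9 F, ∀ i : K, i ∈ Subgroup.zpowers z →
      g * z₀ * g⁻¹ = (i : GL I9 F) → i = z := by
    intro g i hi e
    obtain ⟨n, rfl⟩ : ∃ n : ℕ, z ^ n = i := by
      rw [← mem_powers_iff_mem_zpowers] at hi; exact hi
    have hmod : z ^ n = z ^ (n % 3) := by
      conv_lhs => rw [← Nat.div_add_mod n 3, pow_add, pow_mul, hz3, one_pow, one_mul]
    have e' : Matrix.trace (((z ^ (n % 3) : K) : GL I9 F) : Matrix I9 I9 F) =
        Matrix.trace (z₀ : Matrix I9 I9 F) := by
      rw [← hmod, ← e, Units.val_mul, Units.val_mul, Matrix.trace_mul_comm, ← Matrix.mul_assoc,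
        Units.inv_mul, Matrix.one_mul]
    have hne : ω ^ 2 ≠ ω := fun h => hω.ne_one (by
      refine mul_left_cancel₀ hω.ne_zero ?_
      linear_combination h)
    have h9 : (9 : F) ≠ 0 := by
      rw [show (9 : F) = 3 * 3 by norm_num]; exact mul_ne_zero hω.three hω.three
    have tt : Matrix.trace (z₀ : Matrix I9 I9 F) = 3 * ω ^ 2 + 6 := by
      rw [ez, tk_eq, Matrix.trace_smul, Matrix.trace_diagonal, Fintype.sum_prod_type]
      simp [sum_three, show (2 : K3) ≠ 0 from by decide]
      linear_combination 6 * hω.cube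
    obtain h | h | h : n % 3 = 0 ∨ n % 3 = 1 ∨ n % 3 = 2 := by omega
    · exfalso
      rw [h, pow_zero, Subgroup.coe_one, Units.val_one, Matrix.trace_one, tt] at e'
      simp at e'
      have : ω ^ 2 = 1 := mul_left_cancel₀ hω.three (by linear_combination -e')
      exact hω.ne_one (by linear_combination hω.cube - ω * this)
    · rw [hmod, h, pow_one]
    · exfalso
      rw [h, pow_two, Subgroup.coe_mul, Units.val_mul, tt] at e'
      have : Matrix.trace ((z₀ : Matrix I9 I9 F) * (z₀ : Matrix I9 I9 F)) = 3 * ω + 6 := by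
        rw [ez, tk_eq, Matrix.smul_mul, Matrix.mul_smul, smul_smul, Matrix.diagonal_mul_diagonal,
          Matrix.trace_smul, Matrix.trace_diagonal, Fintype.sum_prod_type]
        simp [sum_three, show (2 : K3) ≠ 0 from by decide]
        linear_combination (3 * ω + 6 * ω ^ 3 + 6) * hω.cube
      rw [show ((z : K) : GL I9 F) = z₀ from rfl, this] at e'
      exact hne (mul_left_cancel₀ hω.three (by linear_combination -e'))
  -- elements of K centralising z
  have hcz : ∀ g : K, g * z = z * g →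
      ∃ (σ : F) (t : K3), σ ^ 2 = 1 ∧ Ck ω ((g : GL I9 F) : Matrix I9 I9 F) ∧
        aM ((g : GL I9 F) : Matrix I9 I9 F) = σ • 1 ∧
        bM ((g : GL I9 F) : Matrix I9 I9 F) = (σ * wp ω t) • 1 := by
    rintro ⟨g, hgG, hgp, hgf⟩ hg
    have e : g * z₀ = z₀ * g := congrArg (fun x : K => (x : GL I9 F)) hg
    have hk : Ck ω (g : Matrix I9 I9 F) := by
      refine ⟨hgp, ?_⟩
      have e' := congrArg (fun x : GL I9 F => (x : Matrix I9 I9 F)) e
      simp only [Units.val_mul, ez, Matrix.mul_smul, Matrix.smul_mul] at e'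
      exact smul_right_injective (Matrix I9 I9 F) (pow_ne_zero 2 hω.ne_zero) e'
    obtain ⟨σ, t, h1, h2, h3⟩ := k0_all hG hD hns ⟨⟨g, hgG, rfl⟩, hk, hgf⟩
    exact ⟨σ, t, h1, hk, h2, h3⟩
  -- the Sylow subgroup
  haveI : Fact (Nat.Prime 3) := ⟨by norm_num⟩
  have hPz : IsPGroup 3 (Subgroup.zpowers z) := by
    intro x
    refine ⟨1, ?_⟩
    obtain ⟨x, hx⟩ := x
    obtain ⟨n, rfl⟩ := Subgroup.mem_zpowers_iff.1 hx
    refine Subtype.ext ?_
    rw [SubmonoidClass.coe_pow, pow_one, ← zpow_natCast, ← _root_.zpow_mul, mul_comm, _root_.zpow_mul,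
      zpow_natCast, hz3, _root_.one_zpow]
    rfl
  obtain ⟨P, hP⟩ := hPz.exists_le_sylow
  have hnormc : ∀ g : K, g ∈ Subgroup.normalizer (Subgroup.zpowers z : Set K) → g * z = z * g := by
    intro g hg
    have h := (Subgroup.mem_normalizer_iff.1 hg z).1 (Subgroup.mem_zpowers z)
    have := htr (g : GL I9 F) _ h rfl
    calc g * z = g * z * g⁻¹ * g := by group
      _ = z * g := by rw [this]
  have hPeq : (P : Subgroup K) = Subgroup.zpowers z := by
    by_contra hne
    have hlt : Subgroup.zpowers z < (P : Subgroup K) := lt_of_le_of_ne hP (Ne.symm hne)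
    haveI : Finite P := inferInstance
    haveI := (P.isPGroup').isNilpotent
    have hN := Group.normalizerCondition_of_isNilpotent (G := P)
      ((Subgroup.zpowers z).subgroupOf (P : Subgroup K))
      (lt_top_iff_ne_top.2 fun h => hlt.not_ge (Subgroup.subgroupOf_eq_top.1 h))
    obtain ⟨g, hg, hgn⟩ := SetLike.exists_of_lt hN
    refine hgn (Subgroup.mem_subgroupOf.2 ?_)
    have hgz : (g : K) * z = z * (g : K) := by
      refine hnormc _ ?_
      rw [Subgroup.mem_normalizer_iff]
      intro x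
      constructor
      · intro hx
        have := (Subgroup.mem_normalizer_iff.1 hg ⟨x, hP hx⟩).1 (Subgroup.mem_subgroupOf.2 hx)
        simpa [Subgroup.mem_subgroupOf] using this
      · intro hx
        have hxP : x ∈ (P : Subgroup K) := by
          have := mul_mem (mul_mem (inv_mem g.2) (hP hx)) g.2
          simpa [mul_assoc] using this
        have := (Subgroup.mem_normalizer_iff.1 hg ⟨x, hxP⟩).2 (by
          simpa [Subgroup.mem_subgroupOf] using hx)
        simpa [Subgroup.mem_subgroupOf] using this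
    obtain ⟨σ, t, hσ, hk, ha, hb⟩ := hcz g hgz
    obtain ⟨m, hm⟩ := P.isPGroup' g
    have hσm : ∀ n : ℕ, aM ((((g : K) ^ n : K) : GL I9 F) : Matrix I9 I9 F) = σ ^ n • 1 ∧
        Ck ω ((((g : K) ^ n : K) : GL I9 F) : Matrix I9 I9 F) := by
      intro n
      induction n with
      | zero => simp [aM_one, Ck.one]
      | succ n ih =>
        rw [pow_succ, Subgroup.coe_mul, Units.val_mul]
        refine ⟨?_, ih.2.mul hk⟩
        rw [aM_mul hω ih.2 hk, ih.1, ha, Matrix.smul_mul, Matrix.one_mul, smul_smul, ← pow_succ]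
    have hs1 : σ = 1 := by
      have e := (hσm (3 ^ m)).1
      have hm' : ((g : K) ^ 3 ^ m) = 1 := by
        rw [← SubmonoidClass.coe_pow, hm]; rfl
      rw [hm', Subgroup.coe_one, Units.val_one, aM_one] at e
      have e' := congrFun (congrFun e 0) 0
      simp only [Matrix.one_apply_eq, Matrix.smul_apply, smul_eq_mul, mul_one] at e'
      obtain ⟨r, hr⟩ : ∃ r, 3 ^ m = 2 * r + 1 := (Odd.pow (by decide : Odd 3))
      rw [hr, pow_succ, pow_mul, hσ, one_pow, one_mul] at e'
      exact e'.symm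
    rw [hs1] at ha hb
    have : (g : K) = z ^ (2 * t.val) := by
      refine Subtype.ext (Units.ext (ck_ext hω hG.two hk (hzpow _).1.2.1 ?_ ?_ ?_))
      · rw [(g : K).2.2.2, (hzpow _).1.2.2]
      · rw [ha, (hzpow _).2.1, one_smul]
      · rw [hb, (hzpow _).2.2, one_mul, wp]
        congr 1
        rw [← pow_mul, hω.pow_mod (2 * (2 * t.val)), hω.pow_mod t.val]
        congr 1; omega
    rw [this]; exact Subgroup.npow_mem_zpowers _ _
  have hNC : Subgroup.normalizer (P : Set K) ≤ Subgroup.centralizer (P : Set K) := by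
    intro g hg
    rw [show (P : Set K) = (Subgroup.zpowers z : Set K) from congrArg SetLike.coe hPeq] at hg ⊢
    rw [Subgroup.mem_centralizer_iff]
    intro x hx
    obtain ⟨n, rfl⟩ := Subgroup.mem_zpowers_iff.1 hx
    exact ((Commute.symm (hnormc g hg)).zpow_left n).eq
  have hcompl := MonoidHom.ker_transferSylow_isComplement' P hNC
  set L := (MonoidHom.transferSylow P hNC).ker with hL
  have hcardL : ¬ 3 ∣ Nat.card L := by
    have h := hcompl.index_eq_card
    rw [← h]
    exact P.not_dvd_index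
  have hLmem : ∀ g : K, g ∈ L ↔ ¬ 3 ∣ orderOf g := by
    intro g
    refine ⟨fun hg h => hcardL (h.trans (L.orderOf_dvd_natCard hg)), fun h => ?_⟩
    rw [hL, MonoidHom.mem_ker]
    obtain ⟨m, hm⟩ := P.isPGroup' (MonoidHom.transferSylow P hNC g)
    have h1 : orderOf (MonoidHom.transferSylow P hNC g) ∣ 3 ^ m := orderOf_dvd_of_pow_eq_one hm
    have h2 : orderOf (MonoidHom.transferSylow P hNC g) ∣ orderOf g := orderOf_map_dvd _ g
    have hco : Nat.Coprime (3 ^ m) (orderOf g) :=
      ((Nat.Prime.coprime_iff_not_dvd (by norm_num)).2 h).pow_left m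
    exact orderOf_eq_one_iff.1 (Nat.eq_one_of_dvd_coprimes hco h1 h2)
  set LS : Subgroup (GL I9 F) := L.map K.subtype with hLS
  have hLN : LS ≤ N9 hω := by
    refine generation_nrm hG hD hns LS ?_ ?_ ?_
    · rintro _ ⟨⟨g, hgG, -, -⟩, -, rfl⟩; exact hgG
    swap
    · rwa [hLS, Subgroup.card_map_of_injective K.subtype_injective]
    · rintro u _ ⟨⟨g, hgG, hgp, hgf⟩, hgL, rfl⟩
      have hWG : uP hω u ∈ G := by
        obtain ⟨w, hw, ew⟩ := hG.lft_P u
        have : w = uP hω u := Units.ext (by rw [ew, coe_uP])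
        rwa [← this]
      have hWp : Cp (uP hω u : Matrix I9 I9 F) := by rw [coe_uP]; exact (Ck.left (ω := ω) _).1
      have hWi : Cp (((uP hω u)⁻¹ : GL I9 F) : Matrix I9 I9 F) := hWp.inv (Units.mul_inv _)
      refine ⟨⟨uP hω u * g * (uP hω u)⁻¹, mul_mem (mul_mem hWG hgG) (inv_mem hWG),
        ?_, ?_⟩, ?_, rfl⟩
      · rw [Units.val_mul, Units.val_mul]; exact (hWp.mul hgp).mul hWi
      · rw [Units.val_mul, Units.val_mul, fM_mul (hWp.mul hgp) hWi, fM_mul hWp hgp, hgf,
          Matrix.mul_one, ← fM_mul hWp hWi, Units.mul_inv, fM_one]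
      · show _ ∈ L
        rw [hLmem, ← orderOf_injective K.subtype K.subtype_injective]
        have hgL' := (hLmem _).1 hgL
        rw [← orderOf_injective K.subtype K.subtype_injective] at hgL'
        simp only [Subgroup.coe_subtype] at hgL' ⊢
        rwa [← MulAut.conj_apply, MulEquiv.orderOf_eq]
  refine ⟨fun g hg => ?_, z₀, z.2, ez, fun g hg => ?_⟩
  · revert hg
    suffices hKN : ∀ g : K, Nrm9 ω ((g : GL I9 F) : Matrix I9 I9 F) from fun hg => hKN ⟨g, hg⟩
    intro g
    obtain ⟨⟨l, i⟩, hli, -⟩ := Subgroup.isComplement_iff_existsUnique.1 hcompl g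
    simp only at hli
    have h1 : Nrm9 ω (((l : K) : GL I9 F) : Matrix I9 I9 F) :=
      hLN (Subgroup.mem_map_of_mem K.subtype l.2)
    have h2 : Nrm9 ω (((i : K) : GL I9 F) : Matrix I9 I9 F) := by
      have hi : (i : K) ∈ Subgroup.zpowers z := hPeq ▸ i.2
      have hzN : z₀ ∈ N9 hω := by
        show Nrm9 ω (z₀ : Matrix I9 I9 F)
        rw [ez]
        exact Nrm9.smul (Nrm9.kron Nrm3.one (Nrm3.of_induces (tau_P3 hω))) _
      obtain ⟨n, hn⟩ := Subgroup.mem_zpowers_iff.1 hi
      rw [← hn, SubgroupClass.coe_zpow]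
      exact zpow_mem hzN n
    rw [← hli, Subgroup.coe_mul, Units.val_mul]
    exact h1.mul h2
  · set z' : K := ⟨g * z₀ * g⁻¹, hg⟩ with hz'
    have hz'3 : z' ^ 3 = 1 := by
      refine Subtype.ext ?_
      rw [SubmonoidClass.coe_pow, hz', conj_pow,
        show z₀ ^ 3 = 1 from congrArg (fun x : K => (x : GL I9 F)) hz3, mul_one, mul_inv_cancel]
      rfl
    have hQ : IsPGroup 3 (Subgroup.zpowers z') := by
      intro x
      refine ⟨1, ?_⟩
      obtain ⟨x, hx⟩ := x
      obtain ⟨n, rfl⟩ := Subgroup.mem_zpowers_iff.1 hx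
      refine Subtype.ext ?_
      rw [SubmonoidClass.coe_pow, pow_one, ← zpow_natCast, ← _root_.zpow_mul, mul_comm, _root_.zpow_mul,
        zpow_natCast, hz'3, _root_.one_zpow]
      rfl
    obtain ⟨Q, hQle⟩ := hQ.exists_le_sylow
    obtain ⟨k, hk⟩ := MulAction.exists_smul_eq K P Q
    have hkz : k⁻¹ * z' * k ∈ Subgroup.zpowers z := by
      have hzQ : z' ∈ (Q : Subgroup K) := hQle (Subgroup.mem_zpowers z')
      rw [← hk, Sylow.coe_subgroup_smul, hPeq, Subgroup.mem_pointwise_smul_iff_inv_smul_mem] at hzQ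
      simpa [MulAut.smul_def, MulAut.conj_symm_apply] using hzQ
    refine ⟨(k : GL I9 F), k.2, ?_⟩
    set g₁ : GL I9 F := ((k : GL I9 F))⁻¹ * g with hg₁
    have e := htr g₁ _ hkz (by
      simp only [hg₁, hz', Subgroup.coe_mul, InvMemClass.coe_inv]; group)
    have e' := congrArg (fun x : K => (x : GL I9 F)) e
    simp only [hz', Subgroup.coe_mul, InvMemClass.coe_inv] at e'
    calc g₁ * z₀ = ((k : GL I9 F)⁻¹ * (g * z₀ * g⁻¹) * (k : GL I9 F)) * g₁ := by
          simp only [hg₁]; group
      _ = z₀ * g₁ := by rw [e']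

end Main

end Cfsg.Agent.CSixNineU
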