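import Cfsg.Agent.CSixNineU.Basic
import Cfsg.Agent.CSixNine.Dicho
import Cfsg.Agent.SUGeo.SympType
import Cfsg.Agent.SLThree.SympCore

/-!
The three dimensional unitary dichotomy for overgroups of the weight normaliser.
-/

set_option autoImplicit false
set_option linter.unusedSectionVars false
set_option linter.style.haveILetI false

namespace Cfsg.Agent.CSixNineU

open Matrix Cfsg.Agent.CSixNine
open Cfsg.Agent.Classical.U
open Cfsg.Agent.MinU Cfsg.Agent.MinU.Three
open Cfsg.Agent.SUGeo (toGL exists_toGL toGL_mulVec mem_span_of_perp)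
open Cfsg.Agent.GeoClasses (trvParams)
open Cfsg.Agent.SLThree.Symp (Root3)
open scoped MatrixGroups Matrix

universe u

variable {F : Type u} [Field F] {q : ℕ} {ω : F}

/-- The isometries of the standard form are the matrices with `star' A * A = 1`. -/
theorem mem_GU_iff_uni (hF : SqField F q) {n : ℕ} (g : GL (Fin n) F) :
    g ∈ Cfsg.GU n F q ↔ Uni q (g : Matrix (Fin n) (Fin n) F) := by
  set M := (g : Matrix (Fin n) (Fin n) F) with hM
  constructor
  · intro h
    ext i j
    have e : Cfsg.hermForm n F q (M *ᵥ Pi.single j 1) (M *ᵥ Pi.single i 1) =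
        Cfsg.hermForm n F q (Pi.single j 1) (Pi.single i 1) := h _ _
    simp only [Cfsg.hermForm, Matrix.mulVec_single_one] at e
    rw [Matrix.mul_apply]
    refine (Finset.sum_congr rfl fun k _ => ?_).trans (e.trans ?_)
    · rw [star'_apply]
      exact mul_comm _ _
    · rw [Finset.sum_eq_single j]
      · by_cases hij : i = j
        · subst hij; simp
        · simp [hij, Ne.symm hij, hF.q_ne_zero]
      · intro k _ hk
        simp [hk]
      · simp
  · intro h u v
    show Cfsg.hermForm n F q (M *ᵥ u) (M *ᵥ v) = Cfsg.hermForm n F q u v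
    have hv : (fun i => (M *ᵥ v) i ^ q) = M.map (· ^ q) *ᵥ fun i => v i ^ q := by
      funext i
      simp [Matrix.mulVec, dotProduct, hF.sum_pow, mul_pow]
    have ht : Mᵀ * M.map (· ^ q) = 1 := by
      have := congrArg Matrix.transpose (h : star' q M * M = 1)
      rwa [star', Matrix.transpose_mul, Matrix.transpose_transpose, Matrix.transpose_one] at this
    show (M *ᵥ u) ⬝ᵥ (fun i => (M *ᵥ v) i ^ q) = u ⬝ᵥ fun i => v i ^ q
    rw [hv, ← Matrix.vecMul_transpose, ← Matrix.dotProduct_mulVec, Matrix.mulVec_mulVec, ht,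
      Matrix.one_mulVec]

section Char

theorem charP_of_prime [Finite F] (hF : SqField F q) (hq : q.Prime) : CharP F q := by
  obtain ⟨l, k, hl, hc, he⟩ := hF.exists_char
  have hk : k ≠ 0 := fun h => by
    rw [h, pow_zero] at he
    exact hq.one_lt.ne' he
  obtain rfl : l = q := (Nat.prime_dvd_prime_iff_eq hl hq).1 (he ▸ dvd_pow_self l hk)
  exact hc

theorem natCast_ne_zero_of_lt [Finite F] (hF : SqField F q) (hq : q.Prime) {n : ℕ} (h0 : 0 < n)
    (h : ¬ q ∣ n) : (n : F) ≠ 0 := by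
  haveI := charP_of_prime hF hq
  exact fun e => h ((CharP.cast_eq_zero_iff F q n).1 e)

end Char

/-- A transvection in the subgroup gives all transvections with the same centre. -/
theorem exists_full [Finite F] (hF : SqField F q) (hq : q.Prime)
    {X : Subgroup (SG 1 F q)} {x : SG 1 F q} (hx : x ∈ X) (h1 : x ≠ 1)
    (hsq : ∀ w, x.1.1 (x.1.1 w - w) - (x.1.1 w - w) = 0) :
    ∃ v : Fin (1 + 2) → F, v ≠ 0 ∧ herm q v v = 0 ∧ SUGeo.Full hF X v := by
  set n : (Fin (1 + 2) → F) → (Fin (1 + 2) → F) := fun w => x.1.1 w - w with hn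
  have hiso : ∀ u w, herm q (n u) w + herm q u (n w) + herm q (n u) (n w) = 0 := by
    intro u w
    have h := UG_app x.1 u w
    have e : ∀ z, x.1.1 z = z + n z := fun z => by rw [hn]; simp
    rw [e, e, herm_add_left, hF.herm_add_right, hF.herm_add_right] at h
    linear_combination h
  have hts : ∀ u w, herm q (n u) (n w) = 0 := by
    intro u w
    have h := hiso u (n w)
    rw [show n (n w) = 0 from hsq w, hF.herm_zero_right, hF.herm_zero_right] at h
    simpa using h
  obtain ⟨w₀, hw₀⟩ : ∃ w, n w ≠ 0 := by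
    by_contra hc
    push Not at hc
    exact h1 (Subtype.ext (Subtype.ext (LinearEquiv.ext fun w => sub_eq_zero.1 (hc w))))
  set v := n w₀ with hv
  have hvv : herm q v v = 0 := hts _ _
  have hspan : ∀ u, ∃ c : F, n u = c • v := fun u => by
    obtain ⟨c, hc⟩ := Submodule.mem_span_singleton.1
      (mem_span_of_perp hF hw₀ hvv (hts u u) (hts u w₀))
    exact ⟨c, hc.symm⟩
  choose φ hφ using hspan
  have hrel : ∀ u w, φ u * herm q v w + φ w ^ q * herm q u v = 0 := by
    intro u w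
    have h := hiso u w
    rwa [hts, add_zero, hφ, hφ, herm_smul_left, herm_smul_right] at h
  obtain ⟨z, hz⟩ : ∃ z, herm q v z ≠ 0 := by
    by_contra hc
    push Not at hc
    exact hw₀ (hF.eq_zero_of_herm v hc)
  set c := -(φ z ^ q) / herm q v z with hc
  have hc' : ∀ u, φ u = c * herm q u v := by
    intro u
    rw [hc, div_mul_eq_mul_div, eq_div_iff hz]
    linear_combination hrel u z
  have hzv : herm q z v ≠ 0 := fun h => hz (by rw [← hF.herm_symm, h, zero_pow hF.q_ne_zero])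
  have hskew : c ^ q = -c := by
    have h := hrel z z
    rw [hc', mul_pow, hF.herm_symm] at h
    have h' : (c + c ^ q) * (herm q z v * herm q v z) = 0 := by linear_combination h
    linear_combination (mul_eq_zero.1 h').resolve_right (mul_ne_zero hzv hz)
  have hcond : TrvCond q v c := ⟨hvv, hskew⟩
  have hxt : x = tS hF hcond := by
    refine Subtype.ext (Subtype.ext (LinearEquiv.ext fun u => ?_))
    show x.1.1 u = (trv hF hcond).1 u
    rw [trv_apply, ← hc', ← hφ, hn]
    simp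
  have hc0 : c ≠ 0 := fun h0 => hw₀ (by rw [hv, hφ, hc', h0, zero_mul, zero_smul])
  refine ⟨v, hw₀, hvv, fun a ha => ?_⟩
  haveI := charP_of_prime hF hq
  haveI : Fact q.Prime := ⟨hq⟩
  have hk : (a / c) ^ q = a / c := by rw [div_pow, ha.2, hskew, neg_div_neg_eq]
  obtain ⟨k, hk'⟩ : ∃ k : ZMod q, (ZMod.castHom (dvd_refl q) F k) = a / c := by
    let f : ZMod q → fixF hF := fun k => ⟨ZMod.castHom (dvd_refl q) F k, by
      rw [mem_fixF, ← map_pow, ZMod.pow_card]⟩
    have hf : Function.Bijective f := (Nat.bijective_iff_injective_and_card f).2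
      ⟨fun k l h => (ZMod.castHom (dvd_refl q) F).injective (congrArg Subtype.val h),
        by rw [Nat.card_zmod, card_fixF]⟩
    obtain ⟨k, hk'⟩ := hf.2 ⟨a / c, (mem_fixF hF).2 hk⟩
    exact ⟨k, congrArg Subtype.val hk'⟩
  have hmem : c ∈ trvParams hF (X.map (SUG (1 + 2) F q).subtype) hvv :=
    ⟨hcond, x, hx, by rw [hxt]; rfl⟩
  have hak : a = k.val • c := by
    rw [nsmul_eq_mul, ← map_natCast (ZMod.castHom (dvd_refl q) F), ZMod.natCast_zmod_val, hk',
      div_mul_cancel₀ _ hc0]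
  obtain ⟨h', y, hy, e⟩ : a ∈ trvParams hF (X.map (SUG (1 + 2) F q).subtype) hvv :=
    hak ▸ nsmul_mem hmem _
  exact (Subtype.ext e : y = tS hF ha) ▸ hy

/-- The data of the two basic weight elements. -/
lemma weight_uni [Finite F] (hF : SqField F q) (h2 : (2 : F) ≠ 0) (hω : CSixNine.Omega ω)
    (hconj : ω ^ q = ω ^ 2) :
    Uni q (P3 ω (1, 0)) ∧ Uni q (P3 ω (0, 1)) ∧ Matrix.det (P3 ω (1, 0)) = 1 ∧
      Matrix.det (P3 ω (0, 1)) = 1 := by
  have hw : ∀ a : K3, wp ω a ^ q * wp ω a = 1 := by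
    intro a
    rw [wp, ← pow_mul, mul_comm a.val q, pow_mul, hconj, ← mul_pow, ← pow_succ, hω.cube, one_pow]
  refine ⟨?_, ?_, ?_, ?_⟩
  · rw [Uni]
    ext i j
    rw [Matrix.mul_apply]
    rw [Finset.sum_eq_single i]
    · by_cases h : i = j
      · subst h
        simp [P3_apply, hw]
      · simp [P3_apply, h, Ne.symm h, hF.q_ne_zero]
    · intro k _ hk
      simp [P3_apply, hk, hF.q_ne_zero]
    · simp
  · rw [Uni]
    ext i j
    rw [Matrix.mul_apply]
    rw [Finset.sum_eq_single (i + 1)]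
    · by_cases h : i = j
      · subst h
        simp [P3_apply]
      · simp [P3_apply, h, Ne.symm h, hF.q_ne_zero]
    · intro k _ hk
      simp [P3_apply, hk, hF.q_ne_zero]
    · simp
  · let R : Root3 F := ⟨ω, hω.eqn, h2, hω.three⟩
    have := R.det_gX
    rwa [show (R.gX : Matrix (Fin 3) (Fin 3) F) = P3 ω ((1 : K3), (0 : K3)) from xM_eq R] at this
  · let R : Root3 F := ⟨ω, hω.eqn, h2, hω.three⟩
    have := (Root3.det_gY : Matrix.det ((Root3.gY : GL (Fin 3) F) : Matrix (Fin 3) (Fin 3) F) = 1)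
    rwa [show ((Root3.gY : GL (Fin 3) F) : Matrix (Fin 3) (Fin 3) F) =
      P3 ω ((0 : K3), (1 : K3)) from yM_eq R] at this

/-- A transvection in an overgroup of the weight elements gives the special unitary group. -/
theorem full_of_transvection [Finite F] (hF : SqField F q) (hq : q.Prime) (h5 : 5 ≤ q)
    (hω : CSixNine.Omega ω) (hconj : ω ^ q = ω ^ 2) (H : Subgroup (GL K3 F))
    (hX : InG H (P3 ω (1, 0))) (hY : InG H (P3 ω (0, 1))) {A : Matrix K3 K3 F} (hA : InG H A)
    (hU : Uni q A) (h1 : A ≠ 1) (hsq : (A - 1) * (A - 1) = 0) :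
    ∀ M, Uni q M → Matrix.det M = 1 → InG H M := by
  let H3 : Subgroup (GL (Fin 3) F) := H
  have hlift : ∀ M : Matrix (Fin 3) (Fin 3) F, InG H M → Uni q M → M.det = 1 →
      ∃ x ∈ H3.comap (toGL : SG 1 F q →* GL (Fin 3) F),
        ((toGL x : GL (Fin 3) F) : Matrix (Fin 3) (Fin 3) F) = M := by
    rintro M ⟨g, hg, rfl⟩ hMU hd
    obtain ⟨x, hx⟩ := exists_toGL (q := q) (x := (g : GL (Fin 3) F))
      ⟨(mem_GU_iff_uni hF _).2 hMU, GeoClasses.mem_specialLinear_iff.2 hd⟩
    exact ⟨x, by show toGL x ∈ H3; rw [hx]; exact hg, by rw [hx]⟩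
  have hdetA : Matrix.det (A : Matrix (Fin 3) (Fin 3) F) = 1 := by
    haveI := charP_of_prime hF hq
    haveI : Fact q.Prime := ⟨hq⟩
    have hp : ∀ m : ℕ, A ^ m = 1 + (m : F) • (A - 1) := by
      intro m
      induction m with
      | zero => simp
      | succ m ih =>
        rw [pow_succ, ih]
        nth_rewrite 2 [show A = 1 + (A - 1) by abel]
        rw [add_mul, one_mul, mul_add, mul_one, Matrix.smul_mul, hsq, smul_zero, add_zero,
          Nat.cast_succ, add_smul, one_smul]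
        abel
    have h := congrArg Matrix.det (hp q)
    rw [CharP.cast_eq_zero F q, zero_smul, add_zero, Matrix.det_pow, Matrix.det_one] at h
    have : (Matrix.det A - 1) ^ q = 0 := by rw [sub_pow_char, h, one_pow, sub_self]
    exact sub_eq_zero.1 (pow_eq_zero_iff hF.q_ne_zero |>.1 this)
  obtain ⟨xA, hxA, exA⟩ := hlift A hA hU hdetA
  have h2 : (2 : F) ≠ 0 := by
    exact_mod_cast natCast_ne_zero_of_lt (n := 2) hF hq (by norm_num)
      (fun hd => absurd (Nat.le_of_dvd (by norm_num) hd) (by omega))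
  obtain ⟨hXU, hYU, hXd, hYd⟩ := weight_uni hF h2 hω hconj
  obtain ⟨xX, hxX, exX⟩ := hlift _ hX hXU hXd
  obtain ⟨xY, hxY, exY⟩ := hlift _ hY hYU hYd
  have hx1 : xA ≠ 1 := fun h => h1 (by rw [← exA, h, map_one, Units.val_one]; rfl)
  obtain ⟨v, hv, hvv, hfull⟩ := exists_full hF hq hxA hx1 fun w => by
    have e : ∀ u : Fin (1 + 2) → F, xA.1.1 u - u =
        (((toGL xA : GL (Fin 3) F) : Matrix (Fin 3) (Fin 3) F) - 1) *ᵥ u := fun u => by
      rw [Matrix.sub_mulVec, Matrix.one_mulVec, toGL_mulVec]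
    have hsq' : (((toGL xA : GL (Fin 3) F) : Matrix (Fin 3) (Fin 3) F) - 1) *
        (((toGL xA : GL (Fin 3) F) : Matrix (Fin 3) (Fin 3) F) - 1) = 0 := by
      rw [exA]; exact hsq
    rw [e, e, Matrix.mulVec_mulVec, hsq', Matrix.zero_mulVec]
  have hnofix : ∀ e : Fin (1 + 2) → F, e ≠ 0 →
      ¬ ∀ y ∈ H3.comap (toGL : SG 1 F q →* GL (Fin 3) F),
        y.1.1 e ∈ Submodule.span F {e} := by
    intro e he h
    obtain ⟨c, hc⟩ := Submodule.mem_span_singleton.1 (h _ hxX)
    obtain ⟨d, hd⟩ := Submodule.mem_span_singleton.1 (h _ hxY)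
    let R : Root3 F := ⟨ω, hω.eqn, h2, hω.three⟩
    rw [← toGL_mulVec, exX.trans (xM_eq R).symm] at hc
    rw [← toGL_mulVec, exY.trans (yM_eq R).symm] at hd
    have c0 := congrFun hc (0 : Fin 3)
    have c1 := congrFun hc (1 : Fin 3)
    have d0 := congrFun hd (0 : Fin 3)
    have d1 := congrFun hd (1 : Fin 3)
    have d2 := congrFun hd (2 : Fin 3)
    simp [Root3.xM, Root3.yM, Matrix.mulVec, dotProduct, Fin.sum_univ_three, R] at c0 c1 d0 d1 d2
    have hz0 : e (0 : Fin 3) ≠ 0 := fun hz => he (by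
      have e2 : e (2 : Fin 3) = 0 := by rw [← d0, hz, mul_zero]
      have e1 : e (1 : Fin 3) = 0 := by rw [← d2, e2, mul_zero]
      funext i
      fin_cases i
      exacts [hz, e1, e2])
    have hz1 : e (1 : Fin 3) ≠ 0 := fun hz => hz0 (by rw [← d1, hz, mul_zero])
    have e1 : c = 1 := mul_right_cancel₀ hz0 (by
      first | linear_combination c0 | linear_combination -c0)
    rw [e1] at c1
    simp only [hz1, or_false] at c1
    have hω1 : ω = 1 := by first | exact c1 | exact c1.symm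
    exact hω.three (by
      have e : ω ^ 2 + ω + 1 = 0 := hω.eqn
      rw [hω1] at e
      linear_combination e)
  rcases SUGeo.root hF (by omega) hv hvv hfull with h | ⟨c, hc, h⟩ | h
  · exact absurd h (hnofix v hv)
  · exact absurd h (hnofix c fun h0 => hc (by rw [h0, herm_zero_left]))
  · intro M hM hdM
    have hu : IsUnit (M : Matrix (Fin 3) (Fin 3) F) := (Matrix.isUnit_iff_isUnit_det _).2 (by
      rw [show Matrix.det (M : Matrix (Fin 3) (Fin 3) F) = 1 from hdM]; exact isUnit_one)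
    obtain ⟨x, hx⟩ := exists_toGL (q := q) (x := hu.unit)
      ⟨(mem_GU_iff_uni hF _).2 (by rw [IsUnit.unit_spec]; exact hM),
        GeoClasses.mem_specialLinear_iff.2 (by rw [IsUnit.unit_spec]; exact hdM)⟩
    exact ⟨hu.unit, hx ▸ (h ▸ Subgroup.mem_top x : x ∈ H3.comap toGL), hu.unit_spec⟩

/-- The unitary dichotomy away from characteristic five. -/
theorem dicho_of_ne_five [Finite F] (hF : SqField F q) (hq : q.Prime) (h5 : 5 ≤ q) (hne : q ≠ 5)
    (hω : CSixNine.Omega ω) (hconj : ω ^ q = ω ^ 2) : Dicho q ω := by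
  intro H hscal hX hY hT hF4 hsim
  haveI := Fintype.ofFinite F
  haveI := charP_of_prime hF hq
  haveI : Fact q.Prime := ⟨hq⟩
  have hnd : ∀ n, n = 2 ∨ n = 3 ∨ n = 5 → ¬ q ∣ n := by
    intro n hn hd
    have := Nat.le_of_dvd (by omega) hd
    have : q = 5 → False := hne
    rcases hn with rfl | rfl | rfl <;> omega
  have h2 : (2 : F) ≠ 0 := by
    exact_mod_cast natCast_ne_zero_of_lt (n := 2) hF hq (by norm_num) (hnd 2 (by omega))
  have h3 : (3 : F) ≠ 0 := by
    exact_mod_cast natCast_ne_zero_of_lt (n := 3) hF hq (by norm_num) (hnd 3 (by omega))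
  have h5' : (5 : F) ≠ 0 := by
    exact_mod_cast natCast_ne_zero_of_lt (n := 5) hF hq (by norm_num) (hnd 5 (by omega))
  let R : Root3 F := ⟨ω, hω.eqn, h2, h3⟩
  have hr : R.r ^ q = -R.r := by
    have h3p : (3 : F) ^ q = 3 := by rw [← frobenius_def, map_ofNat]
    rw [Root3.r, div_pow, hF.neg_pow, hF.sub_pow, ← pow_mul, mul_comm 2 q, pow_mul,
      show R.ω ^ q = R.ω ^ 2 from hconj, h3p]
    field_simp
    linear_combination R.ω * R.cube
  let H3 : Subgroup (GL (Fin 3) F) := H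
  set Y : Subgroup (GL (Fin 3) F) :=
    H3 ⊓ (Cfsg.GU 3 F q ⊓ Cfsg.Geo.specialLinear (Fin 3) F) with hYdef
  have hin : ∀ (g : GL (Fin 3) F) (M : Matrix (Fin 3) (Fin 3) F), InG H M →
      (g : Matrix (Fin 3) (Fin 3) F) = M → g ∈ H3 := by
    intro g M hM e
    obtain ⟨g', hg', eg⟩ := hM
    have : g' = g := Units.ext (eg.trans e.symm)
    exact this ▸ hg'
  have hmY : ∀ g : GL (Fin 3) F, g ∈ Y ↔ g ∈ H3 ∧ g ∈ Cfsg.GU 3 F q ∧
      Matrix.det (g : Matrix (Fin 3) (Fin 3) F) = 1 := by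
    intro g
    rw [hYdef, Subgroup.mem_inf, Subgroup.mem_inf,
      Cfsg.Agent.GeoClasses.mem_specialLinear_iff]
  have hP : ∀ v : K3 × K3, InG H (P3 ω v) := by
    intro v
    have := (hX.pow v.1.val).mul (hY.pow v.2.val)
    rw [xM_pow hω, yM_pow hω, P3_mul hω, ZMod.natCast_zmod_val, ZMod.natCast_zmod_val] at this
    have h := (hscal _ (inv_ne_zero (hω.wp_ne_zero
      (-((((0 : K3), v.2) : K3 × K3).1 * ((v.1, (0 : K3)) : K3 × K3).2))))).mul this
    rw [Matrix.smul_mul, Matrix.one_mul, smul_smul, inv_mul_cancel₀ (hω.wp_ne_zero _),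
      one_smul] at h
    simpa using h
  have hW : ∀ a b c : ℕ, InG H (tauM ω ^ a * fourM ω ^ b * tauM ω ^ c) := fun a b c =>
    ((hT.pow a).mul (hF4.pow b)).mul (hT.pow c)
  have hTH : R.gT ∈ H3 := hin _ _ hT (tM_eq R)
  have hW1H : R.gW₁ ∈ H3 := by
    refine hin _ (R.r • fourM ω) ?_ (w₁M_eq R)
    have hr0 : R.r ≠ 0 := by
      intro h
      have := R.r_sq
      rw [h] at this
      simp at this
    have := (hscal R.r hr0).mul hF4
    rwa [Matrix.smul_mul, Matrix.one_mul] at this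
  have hW2H : R.gW₂ ∈ H3 := mul_mem (mul_mem hTH hW1H) (inv_mem hTH)
  have hW1U := SUGeo.herm_gW₁ hF R (show R.ω ^ q = R.ω ^ 2 from hconj) hr
  have hTU := SUGeo.gT_mem_GU hF R (show R.ω ^ q = R.ω ^ 2 from hconj)
  obtain ⟨hXU, hYU, -, -⟩ := weight_uni hF h2 hω hconj
  have hXY : R.gX ∈ Y := (hmY _).2 ⟨hin _ _ hX (xM_eq R), (mem_GU_iff_uni hF _).2 (by
    rw [show (R.gX : Matrix (Fin 3) (Fin 3) F) = P3 ω ((1 : K3), (0 : K3)) from xM_eq R]
    exact hXU), R.det_gX⟩
  have hYY : Root3.gY ∈ Y := (hmY _).2 ⟨hin _ _ hY (yM_eq R), (mem_GU_iff_uni hF _).2 (by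
    rw [show ((Root3.gY : GL (Fin 3) F) : Matrix (Fin 3) (Fin 3) F) =
      P3 ω ((0 : K3), (1 : K3)) from yM_eq R]
    exact hYU), Root3.det_gY⟩
  by_cases hNT : ∀ g ∈ Y,
      ((g : Matrix (Fin 3) (Fin 3) F) - 1) * ((g : Matrix (Fin 3) (Fin 3) F) - 1) = 0 → g = 1
  · left
    have hsl := SLThree.Symp.normalizes R Y h5' (fun g hg => ((hmY g).1 hg).2.2) hXY hYY
      ((hmY _).2 ⟨hW1H, hW1U, R.det_Qs_gen.1⟩)
      ((hmY _).2 ⟨hW2H, mul_mem (mul_mem hTU hW1U) (inv_mem hTU), R.det_Qs_gen.2⟩) hNT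
    have hYn : ∀ g ∈ Y, Nrm3 ω (cv g) := by
      intro g hg
      have hlines : ∀ (r : GL (Fin 3) F), r ∈ R.Rs →
          ∃ w, ∃ c : F, c ≠ 0 ∧ cv r = c • P3 ω w := by
        intro r hr
        obtain ⟨a, b, c, rfl⟩ := R.mem_Rs.1 hr
        have hv := R.val_el a b c
        rw [xM_eq R, yM_eq R] at hv
        have hv' : cv (R.el a b c) =
            ω ^ a • (P3 ω ((1 : K3), (0 : K3)) ^ b * P3 ω ((0 : K3), (1 : K3)) ^ c) := hv
        rw [xM_pow hω, yM_pow hω, P3_mul hω, smul_smul] at hv'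
        exact ⟨_, _, mul_ne_zero (pow_ne_zero _ hω.ne_zero) (hω.wp_ne_zero _), hv'⟩
      intro v
      obtain ⟨r, hrR, f, hf, hre⟩ : ∃ r : GL (Fin 3) F, r ∈ R.Rs ∧ ∃ f : F, f ≠ 0 ∧
          P3 ω v = f • cv r := by
        refine ⟨R.el 0 v.1.val v.2.val, R.el_mem _ _ _,
          (wp ω (-((((0 : K3), v.2) : K3 × K3).1 * ((v.1, (0 : K3)) : K3 × K3).2)))⁻¹,
          inv_ne_zero (hω.wp_ne_zero _), ?_⟩
        have hv := R.val_el 0 v.1.val v.2.val
        rw [xM_eq R, yM_eq R] at hv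
        have hv' : cv (R.el 0 v.1.val v.2.val) =
            ω ^ 0 • (P3 ω ((1 : K3), (0 : K3)) ^ v.1.val *
              P3 ω ((0 : K3), (1 : K3)) ^ v.2.val) := hv
        rw [xM_pow hω, yM_pow hω, P3_mul hω, pow_zero, one_smul, ZMod.natCast_zmod_val,
          ZMod.natCast_zmod_val] at hv'
        rw [hv', smul_smul, inv_mul_cancel₀ (hω.wp_ne_zero _), one_smul]
        simp
      obtain ⟨w, c, hc, hw⟩ := hlines _ (hsl g hg r hrR)
      refine ⟨w, f * c, mul_ne_zero hf hc, ?_⟩
      rw [hre, Matrix.mul_smul, mul_smul]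
      congr 1
      rw [← Matrix.smul_mul, ← hw, ← cv_mul, ← cv_mul, inv_mul_cancel_right]
    have hcomm : ∀ M N N' : Matrix K3 K3 F, InG H M → InG H N → Nrm3 ω N → M * N = N' * M →
        Nrm3 ω N' := by
      rintro M N N' ⟨g, hg, rfl⟩ ⟨n, hn, rfl⟩ hNn e
      have hU : Uni q ((g * n * g⁻¹ * n⁻¹ : GL K3 F) : Matrix K3 K3 F) := by
        obtain ⟨c, hc, ec⟩ := hsim g hg
        obtain ⟨d, hd, ed⟩ := hsim n hn
        have emul : ∀ {A B : Matrix K3 K3 F} {a b : F}, star' q A * A = a • 1 →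
            star' q B * B = b • 1 → star' q (A * B) * (A * B) = (a * b) • 1 := by
          intro A B a b ea eb
          rw [star'_mul hF, Matrix.mul_assoc, ← Matrix.mul_assoc (star' q A), ea, Matrix.smul_mul,
            Matrix.one_mul, Matrix.mul_smul, eb, smul_smul]
        have einv : ∀ (k : GL K3 F) {a : F}, a ≠ 0 →
            star' q (k : Matrix K3 K3 F) * k = a • 1 →
            star' q ((k⁻¹ : GL K3 F) : Matrix K3 K3 F) * ((k⁻¹ : GL K3 F) : Matrix K3 K3 F) =
              a⁻¹ • 1 := by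
          intro k a ha ek
          have h1 : star' q ((k⁻¹ * k⁻¹⁻¹ : GL K3 F) : Matrix K3 K3 F) = 1 := by
            rw [mul_inv_cancel, Units.val_one, star'_one hF]
          have e2 : star' q (k : Matrix K3 K3 F) = a • ((k⁻¹ : GL K3 F) : Matrix K3 K3 F) := by
            calc star' q (k : Matrix K3 K3 F) =
                star' q (k : Matrix K3 K3 F) * k * ((k⁻¹ : GL K3 F) : Matrix K3 K3 F) := by
                  rw [Matrix.mul_assoc, Units.mul_inv, Matrix.mul_one]
              _ = _ := by rw [ek, Matrix.smul_mul, Matrix.one_mul]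
          rw [inv_inv, Units.val_mul, Units.inv_mul] at h1
          have h2' : star' q ((k : Matrix K3 K3 F) * ((k⁻¹ : GL K3 F) : Matrix K3 K3 F)) = 1 := by
            rw [Units.mul_inv, star'_one hF]
          rw [star'_mul hF, e2, Matrix.mul_smul] at h2'
          rw [← h2', smul_smul, inv_mul_cancel₀ ha, one_smul]
        have := emul (emul (emul ec ed) (einv g hc ec)) (einv n hd ed)
        rw [Uni, Units.val_mul, Units.val_mul, Units.val_mul, this]
        rw [show c * d * c⁻¹ * d⁻¹ = 1 by field_simp, one_smul]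
      have hY : g * n * g⁻¹ * n⁻¹ ∈ Y := by
        refine (hmY _).2 ⟨mul_mem (mul_mem (mul_mem hg hn) (inv_mem hg)) (inv_mem hn),
          (mem_GU_iff_uni (n := 3) hF _).2 hU, ?_⟩
        show Matrix.det ((g * n * g⁻¹ * n⁻¹ : GL K3 F) : Matrix K3 K3 F) = 1
        rw [Units.val_mul, Units.val_mul, Units.val_mul, Matrix.det_mul, Matrix.det_mul,
          Matrix.det_mul]
        have e1 : Matrix.det (g : Matrix K3 K3 F) *
            Matrix.det ((g⁻¹ : GL K3 F) : Matrix K3 K3 F) = 1 := by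
          rw [← Matrix.det_mul, ← Units.val_mul, mul_inv_cancel, Units.val_one, Matrix.det_one]
        have e2 : Matrix.det (n : Matrix K3 K3 F) *
            Matrix.det ((n⁻¹ : GL K3 F) : Matrix K3 K3 F) = 1 := by
          rw [← Matrix.det_mul, ← Units.val_mul, mul_inv_cancel, Units.val_one, Matrix.det_one]
        linear_combination (Matrix.det (n : Matrix K3 K3 F) *
          Matrix.det ((n⁻¹ : GL K3 F) : Matrix K3 K3 F)) * e1 + e2
      have h0 : Nrm3 ω ((g * n * g⁻¹ * n⁻¹ : GL K3 F) : Matrix K3 K3 F) := hYn _ hY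
      have := h0.mul hNn
      rw [← Units.val_mul, inv_mul_cancel_right, Units.val_mul, Units.val_mul, e,
        Matrix.mul_assoc, Units.mul_inv, Matrix.mul_one] at this
      exact this
    intro M hM
    exact nrm_of_commutators hω hW hP hcomm hM
  · right
    push Not at hNT
    obtain ⟨g, hg, hsq, hg1⟩ := hNT
    obtain ⟨hgH, hgU, -⟩ := (hmY g).1 hg
    exact full_of_transvection hF hq h5 hω hconj H hX hY (A := (g : Matrix (Fin 3) (Fin 3) F))
      ⟨g, hgH, rfl⟩ ((mem_GU_iff_uni hF _).1 hgU)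
      (fun h => hg1 (Units.ext (h.trans Units.val_one.symm))) hsq

end Cfsg.Agent.CSixNineU
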