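import Mathlib

/-!
A finite computation in the field with 25 elements, in the basis `1, ω` over the prime field.
-/

set_option autoImplicit false

namespace Cfsg.Agent.CSixNineU.Five

/-- Coordinates in the basis `1, ω`. -/
abbrev C5 : Type := ZMod 5 × ZMod 5

/-- Multiplication for `ω ^ 2 = -1 - ω`. -/
def mul5 (u v : C5) : C5 := (u.1 * v.1 - u.2 * v.2, u.1 * v.2 + u.2 * v.1 - u.2 * v.2)

/-- The norm to the prime field. -/
def nrm5 (u : C5) : ZMod 5 := u.1 * u.1 - u.1 * u.2 + u.2 * u.2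

/-- The cube roots of unity. -/
def pw5 : Fin 3 → C5 := ![(1, 0), (0, 1), (-1, -1)]

/-- A point is far from the twelve homology centres. -/
def Far (x y : C5) : Prop :=
  let n := 1 + nrm5 x + nrm5 y
  n ≠ 0 ∧ 1 ≠ 3 * n ∧ nrm5 x ≠ 3 * n ∧ nrm5 y ≠ 3 * n ∧
    ∀ a b : Fin 3, nrm5 ((1, 0) + mul5 (pw5 a) x + mul5 (pw5 b) y) ≠ 4 * n

instance (x y : C5) : Decidable (Far x y) := by unfold Far; infer_instance

theorem far_unit : ∀ x y : C5, Far x y →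
    (x = 0 ∧ y = 0) ∨ (mul5 (mul5 x x) x = (1, 0) ∧ mul5 (mul5 y y) y = (1, 0)) := by
  decide +kernel

theorem far_zero : ∀ y : C5, 1 + nrm5 y ≠ 0 → 1 ≠ 3 * (1 + nrm5 y) → nrm5 y ≠ 3 * (1 + nrm5 y) →
    (∀ a : Fin 3, nrm5 ((1, 0) + mul5 (pw5 a) y) ≠ 4 * (1 + nrm5 y)) → y = 0 := by
  decide +kernel

end Cfsg.Agent.CSixNineU.Five
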