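import Cfsg.Agent.CSixNineU.Dicho
import Cfsg.Agent.CSixNineU.Base
import Cfsg.Agent.CSixNine.Norml
import Cfsg.Agent.CSixNineU.FiveFinite

/-!
The unitary dichotomy in dimension three over the field with 25 elements: the twelve homologies of
the Hessian group, and the transvection obtained from a pair of homologies in special position.
-/

set_option autoImplicit false
set_option linter.unusedSectionVars false

namespace Cfsg.Agent.CSixNineU

open Matrix Cfsg.Agent.CSixNine
open Cfsg.Agent.Classical.U (SqField)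
open scoped MatrixGroups Matrix

namespace Five

universe u

variable {F : Type u} [Field F] {ω : F}

/-- The hermitian product. -/
def ip (u v : K3 → F) : F := ∑ k, u k ^ 5 * v k

/-- The orthogonal projector on a nonsingular point. -/
def proj (v : K3 → F) : Matrix K3 K3 F := Matrix.of fun i k => (ip v v)⁻¹ * (v i * v k ^ 5)

/-- The homology at a nonsingular point. -/
def hom (ω : F) (v : K3 → F) : Matrix K3 K3 F := 1 + (ω - 1) • proj v

/-- The point is one of the twelve centres. -/
def Pt (v : K3 → F) : Prop :=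
  (∃ i, ∀ k, k ≠ i → v k = 0) ∨ (v 0 ≠ 0 ∧ v 1 ^ 3 = v 0 ^ 3 ∧ v 2 ^ 3 = v 0 ^ 3)

lemma k3 (k : K3) : k = 0 ∨ k = 1 ∨ k = 2 := by revert k; decide

section Algebra

variable {E G : Matrix K3 K3 F}

lemma omega_not_prime [CharP F 5] (hω : CSixNine.Omega ω) (hconj : ω ^ 5 = ω ^ 2)
    {a b : ZMod 5}
    (h : ZMod.castHom (dvd_refl 5) F a + ZMod.castHom (dvd_refl 5) F b * ω = 0) :
    a = 0 ∧ b = 0 := by
  haveI : Fact (Nat.Prime 5) := ⟨by norm_num⟩
  by_cases hb : b = 0
  · subst hb
    rw [map_zero, zero_mul, add_zero] at h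
    exact ⟨(ZMod.castHom (dvd_refl 5) F).injective (h.trans (map_zero _).symm), rfl⟩
  exfalso
  have hb' : ZMod.castHom (dvd_refl 5) F b ≠ 0 := fun e =>
    hb ((ZMod.castHom (dvd_refl 5) F).injective (e.trans (map_zero _).symm))
  have he : ω = ZMod.castHom (dvd_refl 5) F (-(a / b)) := by
    rw [map_neg, map_div₀, eq_neg_iff_add_eq_zero, add_div' _ _ _ hb', div_eq_zero_iff]
    left; linear_combination h
  have h5 : ω ^ 5 = ω := by rw [he, ← map_pow, ZMod.pow_card]
  refine hω.ne_one (mul_left_cancel₀ hω.ne_zero ?_)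
  rw [mul_one, ← pow_two, ← hconj, h5]

/-- Two homologies in special position give a transvection. -/
lemma transvection_of_pair [CharP F 5] (hω : CSixNine.Omega ω) (hconj : ω ^ 5 = ω ^ 2)
    (hE : E * E = E) (hG : G * G = G) (hEGE : E * (G * E) = (3 : F) • E)
    (hGEG : G * (E * G) = (3 : F) • G) (h0 : E ≠ 0) :
    ((1 + (ω - 1) • E) * (1 + (ω - 1) • G)) ^ 6 ≠ 1 ∧
      (((1 + (ω - 1) • E) * (1 + (ω - 1) • G)) ^ 6 - 1) *
        (((1 + (ω - 1) • E) * (1 + (ω - 1) • G)) ^ 6 - 1) = 0 := by
  have h5 : (5 : F) = 0 := by exact_mod_cast CharP.cast_eq_zero F 5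
  have hE' : ∀ X : Matrix K3 K3 F, E * (E * X) = E * X := fun X => by
    rw [← Matrix.mul_assoc, hE]
  have hG' : ∀ X : Matrix K3 K3 F, G * (G * X) = G * X := fun X => by
    rw [← Matrix.mul_assoc, hG]
  have hEG' : ∀ X : Matrix K3 K3 F, E * (G * (E * X)) = (3 : F) • (E * X) := fun X => by
    rw [← Matrix.mul_assoc G, ← Matrix.mul_assoc, hEGE, Matrix.smul_mul]
  have hGE' : ∀ X : Matrix K3 K3 F, G * (E * (G * X)) = (3 : F) • (G * X) := fun X => by
    rw [← Matrix.mul_assoc E, ← Matrix.mul_assoc, hGEG, Matrix.smul_mul]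
  set a : F := ω - 1 with ha
  set W : Matrix K3 K3 F := a • E + (a • G + (a * a) • (E * G)) with hW
  have hz : (1 + a • E) * (1 + a • G) = 1 + W := by
    simp only [hW, add_mul, mul_add, one_mul, mul_one, Matrix.smul_mul, Matrix.mul_smul, smul_smul]
    abel
  have hcubic : W * (W * W) = (2 * ω ^ 2) • (W * W) - ω • W := by
    simp only [hW, add_mul, mul_add, Matrix.smul_mul, Matrix.mul_smul, smul_add, smul_smul,
      Matrix.mul_assoc, hE, hG, hE', hG', hEGE, hGEG, hEG', hGE']
    rw [ha]
    match_scalars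
    all_goals grind [hω.eqn]
  rw [hz]
  set z : Matrix K3 K3 F := 1 + W with hzdef
  set N : Matrix K3 K3 F := z * z - (1 - ω) • z - ω • 1 with hN
  have hNW : N = W * W - ω ^ 2 • W := by
    rw [hN, hzdef]
    simp only [add_mul, mul_add, one_mul, mul_one, smul_add]
    match_scalars
    all_goals grind [hω.eqn]
  have hNz : N * z = (-ω) • N := by
    rw [hNW, hzdef]
    simp only [sub_mul, mul_add, mul_one, Matrix.smul_mul, smul_sub, smul_smul,
      Matrix.mul_assoc, hcubic]
    match_scalars
    all_goals grind [hω.eqn]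
  have hzz : z * z = N + (1 - ω) • z + ω • 1 := by rw [hN]; abel
  have hNN : N * N = 0 := by
    calc N * N = N * (z * z) - (1 - ω) • (N * z) - ω • N := by
          nth_rewrite 2 [hN]
          rw [mul_sub, mul_sub, Matrix.mul_smul, Matrix.mul_smul, Matrix.mul_one]
      _ = 0 := by
          rw [← Matrix.mul_assoc, hNz, Matrix.smul_mul, hNz, smul_smul, smul_smul, ← sub_smul,
            ← sub_smul, show -ω * -ω - (1 - ω) * -ω - ω = 0 by ring, zero_smul]
  have step : ∀ α β γ : F, (α • N + β • z + γ • (1 : Matrix K3 K3 F)) * z =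
      (-ω * α + β) • N + (β * (1 - ω) + γ) • z + (β * ω) • (1 : Matrix K3 K3 F) := by
    intro α β γ
    rw [add_mul, add_mul, Matrix.smul_mul, Matrix.smul_mul, Matrix.smul_mul, hNz, hzz,
      Matrix.one_mul]
    match_scalars
    all_goals ring
  have h6 : z ^ 6 - 1 = (4 : F) • N := by
    have e1 : z ^ 1 = (0 : F) • N + (1 : F) • z + (0 : F) • (1 : Matrix K3 K3 F) := by simp
    rw [pow_succ, pow_succ, pow_succ, pow_succ, pow_succ, e1, step, step, step, step, step]
    match_scalars
    all_goals grind [hω.eqn]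
  have hENE : E * N * E = (3 * ω + 4) • E := by
    rw [hNW, hW]
    simp only [add_mul, mul_add, sub_mul, mul_sub, Matrix.smul_mul, Matrix.mul_smul, smul_add,
      smul_smul, Matrix.mul_assoc, hE, hG, hE', hG', hEGE, hGEG, hEG', hGE']
    rw [ha]
    match_scalars
    grind [hω.eqn]
  have hN0 : N ≠ 0 := by
    intro h
    rw [h, mul_zero, zero_mul, eq_comm, smul_eq_zero] at hENE
    have := (omega_not_prime hω hconj (a := 4) (b := 3) (by
      rw [map_ofNat, map_ofNat]; linear_combination hENE.resolve_right h0)).2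
    exact absurd this (by decide)
  have h4 : (4 : F) ≠ 0 := fun h => one_ne_zero (α := F) (by linear_combination h5 - h)
  refine ⟨fun h => ?_, ?_⟩
  · rw [h, sub_self, eq_comm, smul_eq_zero] at h6
    exact hN0 (h6.resolve_left h4)
  · rw [h6, Matrix.smul_mul, Matrix.mul_smul, hNN, smul_zero, smul_zero]

end Algebra

section Main

variable [Finite F] (hF : SqField F 5) (hω : CSixNine.Omega ω) (hconj : ω ^ 5 = ω ^ 2)
include hF hω hconj

lemma charP_five : CharP F 5 := charP_of_prime hF (by norm_num)

lemma ip_pow (u v : K3 → F) : ip u v ^ 5 = ip v u := by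
  rw [ip, ip, hF.sum_pow]
  refine Finset.sum_congr rfl fun k _ => ?_
  rw [mul_pow, hF.pow_pow, mul_comm]

lemma proj_mul_self {v : K3 → F} (hv : ip v v ≠ 0) : proj v * proj v = proj v := by
  ext i k
  simp only [Matrix.mul_apply, proj, Matrix.of_apply]
  rw [show ∑ j, (ip v v)⁻¹ * (v i * v j ^ 5) * ((ip v v)⁻¹ * (v j * v k ^ 5)) =
    (ip v v)⁻¹ * (v i * v k ^ 5) * ((ip v v)⁻¹ * ip v v) by
      simp only [ip, Finset.mul_sum]
      exact Finset.sum_congr rfl fun j _ => by ring]
  rw [inv_mul_cancel₀ hv, mul_one]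

lemma proj_triple {u v : K3 → F} (hu : ip u u ≠ 0) (hv : ip v v ≠ 0) :
    proj u * (proj v * proj u) =
      ((ip u v * ip v u) * (ip u u * ip v v)⁻¹) • proj u := by
  ext i k
  simp only [Matrix.mul_apply, proj, Matrix.of_apply, Matrix.smul_apply, smul_eq_mul,
    Finset.mul_sum]
  have e : ip u v * ip v u = ∑ j, ∑ l, u j ^ 5 * v j * (v l ^ 5 * u l) := by
    rw [ip, ip, Finset.sum_mul_sum]
  rw [e, mul_inv]
  simp only [Finset.sum_mul]
  exact Finset.sum_congr rfl fun j _ => Finset.sum_congr rfl fun l _ => by ring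

lemma proj_ne_zero {v : K3 → F} (hv : ip v v ≠ 0) : proj v ≠ 0 := by
  intro h
  refine hv (Finset.sum_eq_zero fun i _ => ?_)
  have := congrFun (congrFun h i) i
  simp only [proj, Matrix.of_apply, Matrix.zero_apply, mul_eq_zero, inv_eq_zero] at this
  rcases this with h | h | h
  · exact absurd h hv
  · rw [h, mul_zero]
  · rw [h, zero_mul]

lemma dm_mem {H : Subgroup (GL K3 F)} (hscal : ∀ c : F, c ≠ 0 → InG H (c • 1))
    (hT : InG H (tauM ω)) : InG H (Dm ω) := by
  have := (hscal ω hω.ne_zero).mul (hT.mul hT)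
  rw [Matrix.smul_mul, Matrix.one_mul] at this
  convert this using 1
  rw [Dm, tauM, Matrix.diagonal_mul_diagonal, ← Matrix.diagonal_smul]
  congr 1; funext i
  by_cases h : i = 0
  · simp [h]
  · simp [h]; linear_combination -hω.cube

lemma uni_dm : Uni 5 (Dm ω) := by
  rw [Uni, Dm, star'_diagonal hF, Matrix.diagonal_mul_diagonal, ← Matrix.diagonal_one]
  congr 1; funext i
  by_cases h : i = 0
  · simp only [h, if_true]; rw [hconj]; linear_combination hω.cube
  · simp [h]

/-- The homology at the image of the first basis vector lies in the subgroup and is unitary. -/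
lemma hom_mem {H : Subgroup (GL K3 F)} (hscal : ∀ c : F, c ≠ 0 → InG H (c • 1))
    (hT : InG H (tauM ω)) (hsim : ∀ g ∈ H, Sim 5 (g : Matrix K3 K3 F))
    {M : Matrix K3 K3 F} (hM : InG H M) :
    ip (fun i => M i 0) (fun i => M i 0) ≠ 0 ∧ InG H (hom ω fun i => M i 0) ∧
      Uni 5 (hom ω fun i => M i 0) := by
  obtain ⟨c, hc, e⟩ : Sim 5 M := by
    obtain ⟨g, hg, rfl⟩ := hM; exact hsim g hg
  set v := fun i => M i 0 with hv
  have row : ∀ k, ∑ j, v j ^ 5 * M j k = if k = 0 then c else 0 := by
    intro k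
    have := congrFun (congrFun e 0) k
    simp only [Matrix.mul_apply, star'_apply, Matrix.smul_apply, Matrix.one_apply,
      smul_eq_mul, mul_ite, mul_one, mul_zero, eq_comm (a := (0 : K3))] at this
    exact this
  have hvv : ip v v = c := by rw [ip]; exact (row 0).trans (if_pos rfl)
  have hn : ip v v ≠ 0 := hvv ▸ hc
  have key : M * Dm ω = hom ω v * M := by
    rw [hom, add_mul, Matrix.one_mul, Matrix.smul_mul]
    ext i k
    rw [Dm, Matrix.mul_diagonal, Matrix.add_apply, Matrix.smul_apply, Matrix.mul_apply, smul_eq_mul]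
    have : ∑ j, proj v i j * M j k = c⁻¹ * v i * ∑ j, v j ^ 5 * M j k := by
      simp only [proj, Matrix.of_apply, hvv, Finset.mul_sum]
      exact Finset.sum_congr rfl fun j _ => by ring
    rw [this, row]
    by_cases hk : k = 0
    · subst hk; simp only [if_true, hv]; field_simp; ring
    · simp [hk]
  refine ⟨hn, hM.conj (dm_mem hF hω hconj hscal hT) key, ?_⟩
  have hU := uni_dm hF hω hconj
  obtain ⟨V, -, hV, hV'⟩ := hM.exists_inv
  have h1 : star' 5 (hom ω v * M) * (hom ω v * M) = c • 1 := by
    rw [← key, star'_mul hF, Matrix.mul_assoc, ← Matrix.mul_assoc (star' 5 M), e, Matrix.smul_mul,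
      Matrix.one_mul, Matrix.mul_smul, hU]
  rw [star'_mul hF] at h1
  have hs : star' 5 V * star' 5 M = 1 := by rw [← star'_mul hF, hV, star'_one hF]
  calc star' 5 (hom ω v) * hom ω v
      = star' 5 V * (star' 5 M * star' 5 (hom ω v) * (hom ω v * M)) * V := by
        simp only [← Matrix.mul_assoc, hs, Matrix.one_mul]
        simp only [Matrix.mul_assoc, hV, Matrix.mul_one]
    _ = star' 5 V * (star' 5 M * M) * V := by rw [h1, e]
    _ = 1 := by
        rw [← Matrix.mul_assoc, hs, Matrix.one_mul, hV]

lemma wp_pow_five (a : K3) : wp ω a ^ 5 = wp ω (-a) := by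
  refine mul_right_cancel₀ (hω.wp_ne_zero a) ?_
  rw [wp_pow_q hω hconj, ← hω.wp_add, neg_add_cancel, wp_zero]

/-- The finite check, over the field. -/
lemma far (x y : F) (hS : 1 + x * x ^ 5 + y * y ^ 5 ≠ 0)
    (h0 : 1 ≠ 3 * (1 + x * x ^ 5 + y * y ^ 5))
    (h1 : x * x ^ 5 ≠ 3 * (1 + x * x ^ 5 + y * y ^ 5))
    (h2 : y * y ^ 5 ≠ 3 * (1 + x * x ^ 5 + y * y ^ 5))
    (hu : ∀ a b : K3, (1 + wp ω a * x + wp ω b * y) * (1 + wp ω a * x + wp ω b * y) ^ 5 ≠
      4 * (1 + x * x ^ 5 + y * y ^ 5)) :
    (x = 0 ∧ y = 0) ∨ (x ^ 3 = 1 ∧ y ^ 3 = 1) := by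
  haveI := charP_five hF hω hconj
  haveI : Fact (Nat.Prime 5) := ⟨by norm_num⟩
  set ι := ZMod.castHom (dvd_refl 5) F with hι
  set φ : C5 → F := fun u => ι u.1 + ι u.2 * ω with hφ
  have hadd : ∀ u v, φ (u + v) = φ u + φ v := fun u v => by
    simp only [hφ, Prod.fst_add, Prod.snd_add, map_add]; ring
  have hmul : ∀ u v, φ (mul5 u v) = φ u * φ v := fun u v => by
    simp only [hφ, mul5, map_sub, map_add, map_mul]
    linear_combination -(ι u.2 * ι v.2) * hω.eqn
  have hone : φ (1, 0) = 1 := by simp [hφ]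
  have hnrm : ∀ u, φ u * φ u ^ 5 = ι (nrm5 u) := fun u => by
    have e : ∀ t, ι t ^ 5 = ι t := fun t => by rw [← map_pow, ZMod.pow_card]
    simp only [hφ, nrm5, map_sub, map_add, map_mul, hF.add_pow, mul_pow, e, hconj]
    linear_combination (ι u.1 * ι u.2) * hω.eqn + ι u.2 ^ 2 * hω.cube
  have hinj : Function.Injective φ := fun u v h => by
    have := omega_not_prime hω hconj (a := u.1 - v.1) (b := u.2 - v.2) (by
      rw [map_sub, map_sub]; simp only [hφ] at h; linear_combination h)
    exact Prod.ext (sub_eq_zero.1 this.1) (sub_eq_zero.1 this.2)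
  haveI := Fintype.ofFinite F
  have hsurj : Function.Surjective φ := ((Fintype.bijective_iff_injective_and_card φ).2
    ⟨hinj, by rw [← Nat.card_eq_fintype_card, ← Nat.card_eq_fintype_card, hF.2,
      Nat.card_prod, Nat.card_zmod]; norm_num⟩).2
  have hwp : ∀ a : K3, φ (pw5 a) = wp ω a := by
    intro a
    rcases k3 a with rfl | rfl | rfl
    · simpa [pw5] using hone
    · rw [wp_one]; simp [pw5, hφ]
    · rw [show wp ω 2 = ω ^ 2 from rfl]; simp [pw5, hφ]; linear_combination -hω.eqn
  obtain ⟨u, rfl⟩ := hsurj x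
  obtain ⟨v, rfl⟩ := hsurj y
  have hn : 1 + φ u * φ u ^ 5 + φ v * φ v ^ 5 = ι (1 + nrm5 u + nrm5 v) := by
    rw [hnrm, hnrm, map_add, map_add, map_one]
  rw [hn] at hS h0 h1 h2 hu
  rw [hnrm] at h1 h2
  have hfar : Far u v := by
    refine ⟨fun e => hS (by rw [e, map_zero]),
      fun e => h0 ((map_one ι).symm.trans ((congrArg ι e).trans (by rw [map_mul, map_ofNat]))),
      fun e => h1 ((congrArg ι e).trans (by rw [map_mul, map_ofNat])),
      fun e => h2 ((congrArg ι e).trans (by rw [map_mul, map_ofNat])),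
      fun a b e => hu a b ?_⟩
    · rw [← hone, ← hwp a, ← hwp b, ← hmul, ← hmul, ← hadd, ← hadd, hnrm, e, map_mul, map_ofNat]
  rcases far_unit u v hfar with ⟨rfl, rfl⟩ | ⟨hu', hv'⟩
  · left; simp [hφ]
  · right
    constructor
    · rw [pow_succ, pow_two, ← hmul, ← hmul, hu', hone]
    · rw [pow_succ, pow_two, ← hmul, ← hmul, hv', hone]

/-- A point far from all centres is a centre, without the first coordinate. -/
lemma far0 (y : F) (hS : 1 + y * y ^ 5 ≠ 0) (h1 : 1 ≠ 3 * (1 + y * y ^ 5))
    (h2 : y * y ^ 5 ≠ 3 * (1 + y * y ^ 5))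
    (hu : ∀ a : K3, (1 + wp ω a * y) * (1 + wp ω a * y) ^ 5 ≠ 4 * (1 + y * y ^ 5)) : y = 0 := by
  have h3 : (0 : F) * 0 ^ 5 ≠ 3 * (1 + 0 * 0 ^ 5 + y * y ^ 5) := by
    simpa using (mul_ne_zero hω.three hS).symm
  rcases far hF hω hconj 0 y (by simpa using hS) (by simpa using h1) h3 (by simpa using h2)
    (fun a b => by simpa using hu b) with h | h
  · exact h.2
  · exact absurd h.1 (by simp)

end Main

end Five

open Five in
/-- The unitary dichotomy in characteristic five. -/
theorem dicho_five {F : Type*} [Field F] [Finite F] {ω : F} (hF : SqField F 5)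
    (hω : CSixNine.Omega ω) (hconj : ω ^ 5 = ω ^ 2) : Dicho 5 ω := by
  intro H hscal hX hY hT hF4 hsim
  have hP : ∀ v : K3 × K3, InG H (P3 ω v) := by
    intro v
    have := (hX.pow v.1.val).mul (hY.pow v.2.val)
    rw [xM_pow hω, yM_pow hω, P3_mul hω, ZMod.natCast_zmod_val, ZMod.natCast_zmod_val] at this
    have h := (hscal _ (inv_ne_zero (hω.wp_ne_zero
      (-((((0 : K3), v.2) : K3 × K3).1 * ((v.1, (0 : K3)) : K3 × K3).2))))).mul this
    rw [Matrix.smul_mul, Matrix.one_mul, smul_smul, inv_mul_cancel₀ (hω.wp_ne_zero _),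
      one_smul] at h
    simpa using h
  have hPn : ∀ v, Nrm3 ω (P3 ω v) := fun v w => ⟨w, _, hω.wp_ne_zero _, P3_comm hω v w⟩
  have hTn : Nrm3 ω (tauM ω) := Nrm3.of_induces (tau_P3 hω)
  have hFn : Nrm3 ω (fourM ω) := Nrm3.of_induces (four_P3 hω)
  set D : K3 → K3 → Matrix K3 K3 F := fun a b =>
    Matrix.diagonal fun i => wp ω (if i = 0 then 0 else if i = 1 then a else b) with hD
  have hDab : ∀ a b : K3, InG H (D a b) ∧ Nrm3 ω (D a b) := by
    intro a b
    have e : D a b = tauM ω ^ (2 * a - b).val * P3 ω (b - a, 0) := by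
      rw [tau_eq, Matrix.diagonal_pow]
      ext i k
      simp only [hD]
      rw [Matrix.diagonal_mul, P3_apply, Matrix.diagonal_apply, add_zero]
      by_cases h : i = k
      · subst h
        simp only [if_true, Pi.pow_apply]
        rw [show wp ω (if i = 0 then 0 else 1) ^ (2 * a - b).val =
            wp ω (((2 * a - b).val : K3) * (if i = 0 then 0 else 1)) by
          rw [wp, ← pow_mul, ← hω.wp_natCast, Nat.cast_mul, ZMod.natCast_zmod_val, mul_comm],
          ← hω.wp_add]
        congr 1
        have hv : ∀ a b i : K3, (if i = 0 then 0 else if i = 1 then a else b) =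
            ((2 * a - b).val : K3) * (if i = 0 then 0 else 1) + (b - a) * i := by
          decide
        exact hv a b i
      · simp [h]
    rw [e]
    refine ⟨(hT.pow _).mul (hP _), Nrm3.mul ?_ (hPn _)⟩
    generalize (2 * a - b).val = m
    induction m with
    | zero => rw [pow_zero]; exact Nrm3.one
    | succ m ih => rw [pow_succ]; exact ih.mul hTn
  set Q : K3 → K3 → K3 → F := fun a b i => wp ω (if i = 0 then 0 else if i = 1 then a else b)
    with hQ
  have hDQ : ∀ a b i, (D a b * fourM ω) i 0 = Q a b i := by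
    intro a b i
    rw [hD, Matrix.diagonal_mul, hQ]
    simp [fourM]
  have hcol : ∀ j : K3, ∀ i, P3 ω (0, j) i 0 = if i = j then 1 else 0 := by
    intro j i
    simp [P3_apply]
  by_cases hall : ∀ M, InG H M → Pt fun i => M i 0
  · left
    intro M hM
    obtain ⟨K, hK, hKn, s, hs⟩ : ∃ K, InG H K ∧ Nrm3 ω K ∧ ∃ s : F, ∀ i, M i 0 = s * K i 0 := by
      rcases hall M hM with ⟨j, hj⟩ | ⟨h0, h1, h2⟩
      · refine ⟨P3 ω (0, j), hP _, hPn _, M j 0, fun i => ?_⟩
        rw [hcol]
        by_cases h : i = j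
        · subst h; simp
        · simp [h, hj i h]
      · obtain ⟨a, ha⟩ := hω.exists_wp (c := M 1 0 / M 0 0) (by
          rw [div_pow]; exact (div_eq_one_iff_eq (pow_ne_zero 3 h0)).2 h1)
        obtain ⟨b, hb⟩ := hω.exists_wp (c := M 2 0 / M 0 0) (by
          rw [div_pow]; exact (div_eq_one_iff_eq (pow_ne_zero 3 h0)).2 h2)
        refine ⟨D a b * fourM ω, (hDab a b).1.mul hF4, (hDab a b).2.mul hFn, M 0 0, fun i => ?_⟩
        rw [hDQ, hQ]
        rcases k3 i with rfl | rfl | rfl
        · simp
        · simp only [show (1 : K3) ≠ 0 from by decide, if_false, if_true, ← ha]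
          field_simp
        · simp only [show (2 : K3) ≠ 0 from by decide, show (2 : K3) ≠ 1 from by decide,
            if_false, ← hb]
          field_simp
    obtain ⟨K', hK', hKK, hKK'⟩ := hK.exists_inv
    set B := K' * M with hB
    have hBH : InG H B := hK'.mul hM
    have hMB : M = K * B := by rw [hB, ← Matrix.mul_assoc, hKK, Matrix.one_mul]
    suffices hBn : Nrm3 ω B by rw [hMB]; exact hKn.mul hBn
    have hB0 : ∀ i, i ≠ 0 → B i 0 = 0 := by
      intro i hi
      have : B i 0 = s * (K' * K) i 0 := by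
        rw [hB, Matrix.mul_apply, Matrix.mul_apply, Finset.mul_sum]
        exact Finset.sum_congr rfl fun j _ => by rw [hs]; ring
      rw [this, hKK', Matrix.one_apply_ne hi, mul_zero]
    -- orthogonality of the columns
    have orth : ∀ B : Matrix K3 K3 F, InG H B → ∀ k l, k ≠ l → ∑ j, B j k ^ 5 * B j l = 0 := by
      rintro B ⟨g, hg, rfl⟩ k l hkl
      obtain ⟨c, hc, e⟩ := hsim g hg
      have := congrFun (congrFun e k) l
      simpa [Matrix.mul_apply, hkl] using this
    have colne : ∀ B : Matrix K3 K3 F, InG H B → ∀ k, ∃ j, B j k ≠ 0 := by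
      rintro B ⟨g, hg, rfl⟩ k
      obtain ⟨c, hc, e⟩ := hsim g hg
      by_contra hcon
      push Not at hcon
      have := congrFun (congrFun e k) k
      simp [Matrix.mul_apply, hcon] at this
      exact hc (by first | exact this | exact this.symm)
    -- an element fixing the first two coordinate points is in the weight normaliser
    have fin : ∀ B : Matrix K3 K3 F, InG H B → (∀ i, i ≠ 0 → B i 0 = 0) → B 1 1 ≠ 0 →
        Nrm3 ω B := by
      intro B hB hB0 h11
      have h00 : B 0 0 ≠ 0 := by
        obtain ⟨j, hj⟩ := colne B hB 0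
        by_cases h : j = 0
        · exact h ▸ hj
        · exact absurd (hB0 j h) hj
      have h0k : ∀ k, k ≠ 0 → B 0 k = 0 := by
        intro k hk
        have := orth B hB 0 k (Ne.symm hk)
        rw [sum_three, hB0 1 (by decide), hB0 2 (by decide)] at this
        simpa [h00] using this
      have hc1 := hall _ (hB.mul (hP (0, 1)))
      simp only [mul_P3_apply, zero_add, zero_mul, wp_zero, mul_one] at hc1
      have h21 : B 2 1 = 0 := by
        rcases hc1 with ⟨j, hj⟩ | ⟨h, -, -⟩
        · refine hj 2 fun e => ?_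
          exact h11 (hj 1 (by rw [← e]; decide))
        · exact absurd (h0k 1 (by decide)) h
      have h12 : B 1 2 = 0 := by
        have := orth B hB 1 2 (by decide)
        rw [sum_three, h21, h0k 1 (by decide)] at this
        simpa [h11] using this
      have hd : B = Matrix.diagonal fun i => B i i := by
        ext i k
        rcases k3 i with rfl | rfl | rfl <;> rcases k3 k with rfl | rfl | rfl
        all_goals simp (config := { decide := true }) [hB0 1 (by decide), hB0 2 (by decide),
          h0k 1 (by decide), h0k 2 (by decide), h12, h21]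
      have hc4 := hall _ (hB.mul hF4)
      have hd4 : ∀ i, (B * fourM ω) i 0 = B i i := by
        intro i
        conv_lhs => rw [hd]
        rw [Matrix.diagonal_mul]
        simp [fourM]
      simp only [hd4] at hc4
      obtain ⟨h0, h1, h2⟩ : B 0 0 ≠ 0 ∧ B 1 1 ^ 3 = B 0 0 ^ 3 ∧ B 2 2 ^ 3 = B 0 0 ^ 3 := by
        rcases hc4 with ⟨j, hj⟩ | h
        · exfalso
          by_cases hj0 : j = 0
          · exact h11 (hj 1 (by rw [hj0]; decide))
          · exact h00 (hj 0 (Ne.symm hj0))
        · exact h
      obtain ⟨a, ha⟩ := hω.exists_wp (c := B 1 1 / B 0 0) (by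
        rw [div_pow]; exact (div_eq_one_iff_eq (pow_ne_zero 3 h0)).2 h1)
      obtain ⟨b, hb⟩ := hω.exists_wp (c := B 2 2 / B 0 0) (by
        rw [div_pow]; exact (div_eq_one_iff_eq (pow_ne_zero 3 h0)).2 h2)
      have : B = (B 0 0 • 1) * D a b := by
        rw [Matrix.smul_mul, Matrix.one_mul, hD, ← Matrix.diagonal_smul]
        conv_lhs => rw [hd]
        congr 1; funext i
        rcases k3 i with rfl | rfl | rfl
        · simp
        · simp only [Pi.smul_apply, smul_eq_mul, show (1 : K3) ≠ 0 from by decide, if_false,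
            if_true, ← ha]
          field_simp
        · simp only [Pi.smul_apply, smul_eq_mul, show (2 : K3) ≠ 0 from by decide,
            show (2 : K3) ≠ 1 from by decide, if_false, ← hb]
          field_simp
      rw [this]
      exact (smul_nrm3 _).mul (hDab a b).2
    by_cases h11 : B 1 1 = 0
    · have h00 : B 0 0 ≠ 0 := by
        obtain ⟨j, hj⟩ := colne B hBH 0
        by_cases h : j = 0
        · exact h ▸ hj
        · exact absurd (hB0 j h) hj
      have h01 : B 0 1 = 0 := by
        have := orth B hBH 0 1 (by decide)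
        rw [sum_three, hB0 1 (by decide), hB0 2 (by decide)] at this
        simpa [h00] using this
      have h21 : B 2 1 ≠ 0 := by
        obtain ⟨j, hj⟩ := colne B hBH 1
        rcases k3 j with rfl | rfl | rfl
        · exact absurd h01 hj
        · exact absurd h11 hj
        · exact hj
      have hR : InG H (fourM ω * fourM ω) := hF4.mul hF4
      have hRB : ∀ i k, (fourM ω * fourM ω * B) i k = 3 * B (-i) k := by
        intro i k
        rw [Matrix.mul_apply, Finset.sum_eq_single (-i)]
        · rw [four_sq_apply hω, add_neg_cancel, if_pos rfl]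
        · intro j _ hj
          rw [four_sq_apply hω, if_neg (fun h => hj (eq_neg_of_add_eq_zero_right h)), zero_mul]
        · simp
      have := fin _ (hR.mul hBH) (fun i hi => by rw [hRB, hB0 _ (neg_ne_zero.2 hi), mul_zero])
        (by rw [hRB, show -(1 : K3) = 2 from by decide]; exact mul_ne_zero hω.three h21)
      obtain ⟨R', hR', hRR, hRR'⟩ := hR.exists_inv
      have hn : Nrm3 ω R' := Nrm3.of_mul_eq_one hω hRR (hFn.mul hFn)
      have h' := hn.mul this
      rwa [← Matrix.mul_assoc, hRR', Matrix.one_mul] at h'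
    · exact fin B hBH hB0 h11
  · right
    push Not at hall
    obtain ⟨M, hM, hPt⟩ := hall
    haveI := charP_five hF hω hconj
    obtain ⟨hv, hvH, hvU⟩ := hom_mem hF hω hconj hscal hT hsim hM
    set v := fun i => M i 0 with hvdef
    by_cases hspec : ∃ K, InG H K ∧ ip (fun i => K i 0) v * ip v (fun i => K i 0) =
        3 * (ip (fun i => K i 0) (fun i => K i 0) * ip v v)
    · obtain ⟨K, hK, he⟩ := hspec
      obtain ⟨hu, huH, huU⟩ := hom_mem hF hω hconj hscal hT hsim hK
      set u := fun i => K i 0 with hudef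
      have e1 : ip u v * ip v u * (ip u u * ip v v)⁻¹ = 3 := by
        rw [he]; field_simp
      have t := transvection_of_pair hω hconj (proj_mul_self hF hω hconj hv)
        (proj_mul_self hF hω hconj hu)
        (by rw [proj_triple hF hω hconj hv hu, mul_comm (ip v u), mul_comm (ip v v), e1])
        (by rw [proj_triple hF hω hconj hu hv, e1]) (proj_ne_zero hF hω hconj hv)
      refine full_of_transvection hF (by norm_num) le_rfl hω hconj H hX hY
        (A := (hom ω v * hom ω u) ^ 6) ((hvH.mul huH).pow 6) ?_ t.1 t.2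
      have hU := Uni.mul hF hvU huU
      generalize hom ω v * hom ω u = z at hU
      clear t
      induction (6 : ℕ) with
      | zero => rw [pow_zero]; exact Uni.one hF
      | succ m ih => rw [pow_succ]; exact Uni.mul hF ih hU
    · push Not at hspec
      exfalso
      refine hPt ?_
      have hsj : ∀ j, v j * v j ^ 5 ≠ 3 * ip v v := by
        intro j e
        refine hspec _ (hP (0, j)) ?_
        have e0 : (fun i => P3 ω (0, j) i 0) = fun i => if i = j then 1 else 0 := funext (hcol j)
        have e1 : ip (fun i => if i = j then (1 : F) else 0) v = v j := by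
          rw [ip, Finset.sum_eq_single j]
          · simp
          · intro k _ hk; simp [hk]
          · simp
        have e2 : ip (fun i => if i = j then (1 : F) else 0) (fun i => if i = j then (1 : F) else 0)
            = 1 := by
          rw [ip, Finset.sum_eq_single j]
          · simp
          · intro k _ hk; simp [hk]
          · simp
        rw [e0, ← ip_pow hF hω hconj _ v, e1, e2, one_mul, e]
      have hab : ∀ a b : K3, (v 0 + wp ω a * v 1 + wp ω b * v 2) *
          (v 0 + wp ω a * v 1 + wp ω b * v 2) ^ 5 ≠ 4 * ip v v := by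
        intro a b e
        refine hspec _ ((hDab (-a) (-b)).1.mul hF4) ?_
        have e0 : (fun i => (D (-a) (-b) * fourM ω) i 0) = Q (-a) (-b) := funext (hDQ (-a) (-b))
        rw [e0]
        have eQ : ip (Q (-a) (-b)) v = v 0 + wp ω a * v 1 + wp ω b * v 2 := by
          simp only [ip, hQ, wp_pow_five hF hω hconj, sum_three]
          simp [show (2 : K3) ≠ 0 from by decide, show (2 : K3) ≠ 1 from by decide]
        have eQQ : ip (Q (-a) (-b)) (Q (-a) (-b)) = 3 := by
          simp only [ip, hQ, wp_pow_q hω hconj, sum_three]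
          norm_num
        rw [← ip_pow hF hω hconj (Q (-a) (-b)) v, eQ, eQQ, e]
        have h5 : (5 : F) = 0 := by exact_mod_cast CharP.cast_eq_zero F 5
        linear_combination (-ip v v) * h5
      have hsum : ip v v = v 0 * v 0 ^ 5 + v 1 * v 1 ^ 5 + v 2 * v 2 ^ 5 := by
        rw [ip, sum_three]; ring
      by_cases h0 : v 0 = 0
      · by_cases h1 : v 1 = 0
        · exact Or.inl ⟨2, fun k hk => by rcases k3 k with rfl | rfl | rfl <;> first | assumption | exact absurd rfl hk⟩
        refine Or.inl ⟨1, fun k hk => ?_⟩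
        have hy : v 2 / v 1 = 0 := by
          set y := v 2 / v 1 with hy
          have e2 : v 2 = v 1 * y := by rw [hy]; field_simp
          have hn : (v 1 * v 1 ^ 5) ≠ 0 := mul_ne_zero h1 (pow_ne_zero _ h1)
          have hS : ip v v = v 1 * v 1 ^ 5 * (1 + y * y ^ 5) := by rw [hsum, h0, e2]; ring
          refine far0 hF hω hconj y (fun e => hv (by rw [hS, e, mul_zero])) (fun e => hsj 1 ?_)
            (fun e => hsj 2 ?_) (fun a e => hab 0 a ?_)
          · rw [hS]; linear_combination (v 1 * v 1 ^ 5) * e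
          · rw [hS, e2]; linear_combination (v 1 * v 1 ^ 5) * e
          · rw [hS, h0, e2, wp_zero, one_mul, zero_add,
              show v 1 + wp ω a * (v 1 * y) = v 1 * (1 + wp ω a * y) by ring, mul_pow]
            linear_combination (v 1 * v 1 ^ 5) * e
        rcases k3 k with rfl | rfl | rfl
        · exact h0
        · exact absurd rfl hk
        · exact (div_eq_zero_iff.1 hy).resolve_right h1
      · set x := v 1 / v 0 with hx
        set y := v 2 / v 0 with hy
        have e1 : v 1 = v 0 * x := by rw [hx]; field_simp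
        have e2 : v 2 = v 0 * y := by rw [hy]; field_simp
        have hS : ip v v = v 0 * v 0 ^ 5 * (1 + x * x ^ 5 + y * y ^ 5) := by
          rw [hsum, e1, e2]; ring
        rcases far hF hω hconj x y (fun e => hv (by rw [hS, e, mul_zero])) (fun e => hsj 0 (by
            rw [hS]; linear_combination (v 0 * v 0 ^ 5) * e)) (fun e => hsj 1 (by
            rw [hS, e1]; linear_combination (v 0 * v 0 ^ 5) * e)) (fun e => hsj 2 (by
            rw [hS, e2]; linear_combination (v 0 * v 0 ^ 5) * e)) (fun a b e => hab a b (by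
            rw [hS, e1, e2, show v 0 + wp ω a * (v 0 * x) + wp ω b * (v 0 * y) =
              v 0 * (1 + wp ω a * x + wp ω b * y) by ring, mul_pow]
            linear_combination (v 0 * v 0 ^ 5) * e)) with ⟨hx0, hy0⟩ | ⟨hx3, hy3⟩
        · refine Or.inl ⟨0, fun k hk => ?_⟩
          rcases k3 k with rfl | rfl | rfl
          · exact absurd rfl hk
          · rw [e1, hx0, mul_zero]
          · rw [e2, hy0, mul_zero]
        · exact Or.inr ⟨h0, by rw [e1, mul_pow, hx3, mul_one], by rw [e2, mul_pow, hy3, mul_one]⟩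

end Cfsg.Agent.CSixNineU
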