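import Cfsg.Agent.CSixNineU.KerK
import Cfsg.Agent.CSixNineU.Centr
import Cfsg.Agent.CSixNine.KerAll

/-!
The kernel acts by scalars on the two remaining eigenspaces.
-/

set_option autoImplicit false
set_option linter.unusedSectionVars false

namespace Cfsg.Agent.CSixNineU

open Matrix Cfsg.Agent.CSixNine
open scoped MatrixGroups Matrix Kronecker

variable {F : Type*} [Field F] {q : ℕ} {ω : F} {G : Subgroup (GL I9 F)}

/-- The restrictions of a similitude commuting with `1 ⊗ π` are similitudes. -/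
lemma sim_fM (hF : Classical.U.SqField F q) {A B : Matrix I9 I9 F} (hA : Sim q A) (hp : Cp A)
    (h : A * B = 1) : Sim q (fM A) := by
  obtain ⟨c, hc, e⟩ := hA
  have hs : star' q A = c • B := by
    calc star' q A = star' q A * A * B := by rw [Matrix.mul_assoc, h, Matrix.mul_one]
      _ = c • B := by rw [e, Matrix.smul_mul, Matrix.one_mul]
  have hst : star' q (fM A) = c • fM B := by
    have h1 : ∀ i k, A (k, 2) (i, 1) = A (k, 1) (i, 2) := fun i k => by
      rw [hp.apply]
      congr 2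
    ext i k
    have e1 := congrFun (congrFun hs (i, 1)) (k, 1)
    have e2 := congrFun (congrFun hs (i, 1)) (k, 2)
    simp only [star'_apply, Matrix.smul_apply, smul_eq_mul, h1] at e1 e2
    simp only [star'_apply, fM, sub3, Matrix.sub_apply, Matrix.of_apply, Matrix.smul_apply,
      smul_eq_mul, hF.sub_pow, e1, e2]
    ring
  refine ⟨c, hc, ?_⟩
  rw [hst, Matrix.smul_mul, ← fM_mul (hp.inv h) hp, mul_eq_one_comm.1 h, fM_one]

lemma sim_aM_bM (hF : Classical.U.SqField F q) (hω : CSixNine.Omega ω) {A B : Matrix I9 I9 F}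
    (hA : Sim q A) (hk : Ck ω A) (h : A * B = 1) : Sim q (aM A) ∧ Sim q (bM A) := by
  obtain ⟨c, hc, e⟩ := hA
  have hs : star' q A = c • B := by
    calc star' q A = star' q A * A * B := by rw [Matrix.mul_assoc, h, Matrix.mul_one]
      _ = c • B := by rw [e, Matrix.smul_mul, Matrix.one_mul]
  have h1 : ∀ i k, A (k, 2) (i, 1) = A (k, 1) (i, 2) := fun i k => by
    rw [hk.1.apply]
    congr 2
  have ha : star' q (aM A) = c • aM B := by
    ext i k
    have e1 := congrFun (congrFun hs (i, 1)) (k, 1)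
    have e2 := congrFun (congrFun hs (i, 1)) (k, 2)
    simp only [star'_apply, Matrix.smul_apply, smul_eq_mul, h1] at e1 e2
    simp only [star'_apply, aM, sub3, Matrix.add_apply, Matrix.of_apply, Matrix.smul_apply,
      smul_eq_mul, hF.add_pow, e1, e2]
    ring
  have hb : star' q (bM A) = c • bM B := by
    ext i k
    exact congrFun (congrFun hs (i, 0)) (k, 0)
  have hk' := hk.inv h
  refine ⟨⟨c, hc, ?_⟩, c, hc, ?_⟩
  · rw [ha, Matrix.smul_mul, ← aM_mul hω hk' hk, mul_eq_one_comm.1 h, aM_one]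
  · rw [hb, Matrix.smul_mul, ← bM_mul hω hk' hk, mul_eq_one_comm.1 h, bM_one]

lemma Gen.sim_K0 (hG : Gen q ω G) {A : Matrix I9 I9 F} (hA : K0 ω G A) :
    Sim q (aM A) ∧ Sim q (bM A) := by
  obtain ⟨B, -, h1, -⟩ := hA.exists_inv hG.om
  exact sim_aM_bM hG.fld hG.om (hG.sim_mem hA.1) hA.2.1 h1

lemma uni_diag (hF : Classical.U.SqField F q) {d : K3 → F} (h : ∀ i, d i ^ q * d i = 1) :
    Uni q (Matrix.diagonal d) := by
  rw [Uni, star'_diagonal hF, Matrix.diagonal_mul_diagonal, ← Matrix.diagonal_one]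
  congr 1; funext i; exact h i

section Main

variable (hG : Gen q ω G) [Finite F] (hD : Dicho q ω) (hns : NoSU q G)
include hG hD hns

lemma form_of_commute_both {A : Matrix I9 I9 F} (hA : K0 ω G A) {d : K3 × K3} (hd : d ≠ 0)
    (ha : aM A * P3 ω d = P3 ω d * aM A) (hb : bM A * P3 ω d = P3 ω d * bM A) :
    ∃ (σ : F) (t : K3), σ ^ 2 = 1 ∧ aM A = σ • 1 ∧ bM A = (σ * wp ω t) • 1 := by
  have hω := hG.om
  have hW : Ck ω (P3 ω d ⊗ₖ (1 : Matrix K3 K3 F)) := Ck.left _
  have e : A * (P3 ω d ⊗ₖ (1 : Matrix K3 K3 F)) = (P3 ω d ⊗ₖ (1 : Matrix K3 K3 F)) * A := by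
    refine ck_ext hω hG.two (hA.2.1.mul hW) (hW.mul hA.2.1) ?_ ?_ ?_
    · rw [fM_mul hA.2.1.1 hW.1, fM_mul hW.1 hA.2.1.1, hA.2.2, fM_left, one_mul, mul_one]
    · rw [aM_mul hω hA.2.1 hW, aM_mul hω hW hA.2.1, aM_left, ha]
    · rw [bM_mul hω hA.2.1 hW, bM_mul hω hW hA.2.1, bM_left, hb]
  refine k0_form hG hA (proj_centraliser hG hD hns hA.1 (r := (d, 0)) ?_ (c := 1) ?_)
  · exact fun h => hd (congrArg Prod.fst h)
  · rw [one_smul, P9, P3_zero, e]

/-- The commutator of a member of `K0` with a weight operator. -/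
lemma k0_commutator {A : Matrix I9 I9 F} (hA : K0 ω G A) (v : K3 × K3) :
    ∃ A', K0 ω G A' ∧ (bM A = 1 → bM A' = 1) ∧
      aM A' * P3 ω v * aM A = aM A * P3 ω v ∧ bM A' * P3 ω v * bM A = bM A * P3 ω v := by
  have hω := hG.om
  obtain ⟨B, hB, -, ha, hb⟩ := hA.exists_inv hω
  obtain ⟨B', hB', ea, eb, -⟩ :=
    hB.conjU hG (isUnit_P3 hω v) (fun u => ⟨u, _, hω.wp_ne_zero _, P3_comm hω v u⟩)
  refine ⟨A * B', hA.mul hB', fun h1 => ?_, ?_, ?_⟩
  · rw [h1, one_mul] at hb
    rw [hb, Matrix.mul_one] at eb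
    rw [bM_mul hω hA.2.1 hB'.2.1, h1, one_mul]
    exact ((isUnit_P3 hω v).mul_left_inj.1 (eb.symm.trans (Matrix.one_mul _).symm))
  · rw [aM_mul hω hA.2.1 hB'.2.1, Matrix.mul_assoc (aM A), ← ea, Matrix.mul_assoc,
      Matrix.mul_assoc, mul_eq_one_comm.1 ha, Matrix.mul_one]
  · rw [bM_mul hω hA.2.1 hB'.2.1, Matrix.mul_assoc (bM A), ← eb, Matrix.mul_assoc,
      Matrix.mul_assoc, mul_eq_one_comm.1 hb, Matrix.mul_one]

lemma aM_eq_one {A : Matrix I9 I9 F} (hA : K0 ω G A) (hb : bM A = 1) : aM A = 1 := by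
  have hω := hG.om
  have sigma : ∀ {σ : F} {t : K3}, σ ^ 2 = 1 → (1 : Matrix K3 K3 F) = (σ * wp ω t) • 1 → σ = 1 := by
    intro σ t h e
    have e' := congrFun (congrFun e 0) 0
    simp only [Matrix.one_apply_eq, Matrix.smul_apply, smul_eq_mul, mul_one] at e'
    linear_combination (-σ * wp ω t * (σ * wp ω t + 1) - 1) * e' - σ * wp_cube hω t -
      σ * wp ω t ^ 3 * h
  rcases dicho_normalised hG hD (imgA hω G) (fun a ⟨C, hC, _, ea⟩ => ea ▸ (hG.sim_K0 hC).1)
    (fun X hX hn M M' hM e => by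
    obtain ⟨g, ⟨C, hC, hC1, eC⟩, rfl⟩ := hM
    obtain ⟨C', hC', ea, eb, -⟩ := hC.conjU hG hX hn
    rw [hC1, Matrix.mul_one] at eb
    have hb' : bM C' = 1 := (hX.mul_left_inj.1 (eb.symm.trans (Matrix.one_mul _).symm))
    rw [eC, e] at ea
    rw [hX.mul_left_inj.1 ea]
    exact mem_imgA hω hC' hb') with h | h
  · have hn := h _ (mem_imgA hω hA hb)
    have hcomm : ∀ v, aM A * P3 ω v = P3 ω v * aM A := by
      intro v
      obtain ⟨w, c, -, e⟩ := hn v
      obtain ⟨k, hk⟩ := P3_div hω v w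
      obtain ⟨A', hA', hb', ea, -⟩ := k0_commutator hG hD hns hA v
      have hu : IsUnit (P3 ω v * aM A) := by
        obtain ⟨B, -, -, ha, -⟩ := hA.exists_inv hω
        exact (isUnit_P3 hω v).mul (IsUnit.of_mul_eq_one _ ha)
      have e' : aM A' = (c * k) • P3 ω (w - v) := by
        refine hu.mul_left_inj.1 ?_
        rw [← Matrix.mul_assoc, ea, e, hk, Matrix.smul_mul, smul_smul, Matrix.smul_mul,
          Matrix.mul_assoc]
      obtain ⟨d, hd, hdd⟩ := exists_weight hω (w - v)
      obtain ⟨σ, t, hσ, ha1, hb1⟩ := form_of_commute_both hG hD hns hA' hd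
        (by rw [e']; exact hdd _) (by rw [hb' hb, one_mul, mul_one])
      rw [hb' hb] at hb1
      rw [ha1, sigma hσ hb1, one_smul, one_mul] at ea
      exact ea.symm
    obtain ⟨σ, t, hσ, ha1, hb1⟩ := form_of_commute_both hG hD hns hA (d := (1, 0)) (by decide)
      (hcomm _) (by rw [hb, one_mul, mul_one])
    rw [hb] at hb1
    rw [ha1, sigma hσ hb1, one_smul]
  · exfalso
    have h20 : (2 : K3) ≠ 0 := by decide
    have h21 : (2 : K3) ≠ 1 := by decide
    have hprod : ∏ i : K3, wp ω (i + 1) = 1 := by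
      rw [show (Finset.univ : Finset K3) = {0, 1, 2} from by decide,
        Finset.prod_insert (by decide), Finset.prod_insert (by decide), Finset.prod_singleton,
        ← hω.wp_add, ← hω.wp_add,
        show ((0 : K3) + 1 + ((1 : K3) + 1 + ((2 : K3) + 1))) = 0 by decide, wp_zero]
    obtain ⟨g, ⟨C, hC, hC1, eC⟩, eg⟩ := h (Matrix.diagonal fun i => wp ω (i + 1))
      (uni_diag hG.fld fun i => wp_pow_q hω hG.conj _) (by rw [Matrix.det_diagonal, hprod])
    rw [eg] at eC
    set Q : K3 → Matrix K3 K3 F := fun i => Matrix.of fun a b =>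
      if a = 0 ∨ b = 0 then (if a = b then 1 else 0)
      else if a = b then (wp ω (i + 1) + 1) * (2 : F)⁻¹ else (wp ω (i + 1) - 1) * (2 : F)⁻¹ with hQ
    have hQk : Ck ω (blk Q) := by
      constructor
      · rw [Cp, pj, ← blk_const, blk_mul, blk_mul]
        congr 1; funext i; ext a b
        rw [Matrix.mul_apply, Matrix.mul_apply, sum_three, sum_three]
        simp only [hQ, Pim, Matrix.of_apply]
        obtain rfl | rfl | rfl := k3_cases a <;> obtain rfl | rfl | rfl := k3_cases b <;>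
          simp (config := { decide := true })
      · rw [tk, ← blk_const, blk_mul, blk_mul]
        congr 1; funext i; ext a b
        rw [tauM, Matrix.mul_diagonal, Matrix.diagonal_mul]
        obtain rfl | rfl | rfl := k3_cases a <;> obtain rfl | rfl | rfl := k3_cases b <;>
          simp (config := { decide := true }) [hQ, mul_comm]
    have e : C = blk Q := by
      have h2 := hG.two
      refine ck_ext hω hG.two hC.2.1 hQk ?_ ?_ ?_
      · rw [hC.2.2]
        ext i k
        by_cases hik : i = k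
        · subst hik
          simp (config := { decide := true }) [fM, sub3, blk, hQ]
          field_simp
          ring
        · simp [fM, sub3, blk, hik]
      · rw [eC]
        ext i k
        by_cases hik : i = k
        · subst hik
          simp (config := { decide := true }) [aM, sub3, blk, hQ]
          field_simp
          ring
        · simp [aM, sub3, blk, hik]
      · rw [hC1]
        ext i k
        by_cases hik : i = k
        · subst hik; simp [bM, sub3, blk, hQ]
        · simp [bM, sub3, blk, hik]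
    have hC0 := hC.1
    rw [e] at hC0
    have hp1 : wp ω ((0 : K3) + 1) + 1 ≠ 0 := fun h0 => by
      have h3 := wp_cube hω ((0 : K3) + 1)
      rw [eq_neg_of_add_eq_zero_left h0] at h3
      exact hG.two (by linear_combination -h3)
    have hm1 : wp ω ((0 : K3) + 1) - 1 ≠ 0 := fun h0 => by
      refine absurd (hω.wp_inj ((sub_eq_zero.1 h0).trans wp_zero.symm)) (by decide)
    have hi := inv_ne_zero hG.two
    refine not_nrm3_homology hω ?_ ?_ ?_ ?_ ?_ ?_ ?_ ?_ ?_ (good hG hD hns hC0 0)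
    all_goals simp only [hQ, Matrix.of_apply]
    all_goals simp (config := { decide := true })
    all_goals first | exact ⟨hp1, hG.two⟩ | exact ⟨hm1, hG.two⟩

lemma k0_inj {A B : Matrix I9 I9 F} (hA : K0 ω G A) (hB : K0 ω G B) (h : bM A = bM B) :
    A = B := by
  have hω := hG.om
  obtain ⟨C, hC, h1, -, hb⟩ := hA.exists_inv hω
  have h2 := mul_eq_one_comm.1 h1
  have hk := hC.mul hB
  have hb1 : bM (C * B) = 1 := by
    rw [bM_mul hω hC.2.1 hB.2.1, ← h]; exact mul_eq_one_comm.1 hb
  have ha1 := aM_eq_one hG hD hns hk hb1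
  have e : C * B = 1 := ck_ext hω hG.two hk.2.1 Ck.one (by rw [hk.2.2, fM_one])
    (by rw [ha1, aM_one]) (by rw [hb1, bM_one])
  calc A = A * (C * B) := by rw [e, Matrix.mul_one]
    _ = B := by rw [← Matrix.mul_assoc, h1, Matrix.one_mul]

lemma form_of_commute {A : Matrix I9 I9 F} (hA : K0 ω G A) {d : K3 × K3} (hd : d ≠ 0)
    (hb : bM A * P3 ω d = P3 ω d * bM A) :
    ∃ (σ : F) (t : K3), σ ^ 2 = 1 ∧ aM A = σ • 1 ∧ bM A = (σ * wp ω t) • 1 := by
  have hω := hG.om
  obtain ⟨A', hA', ea, eb, e⟩ := hA.conjU hG (isUnit_P3 hω d)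
    (fun u => ⟨u, _, hω.wp_ne_zero _, P3_comm hω d u⟩)
  have : A' = A := k0_inj hG hD hns hA' hA
    ((isUnit_P3 hω d).mul_left_inj.1 (eb.symm.trans hb.symm))
  subst this
  exact form_of_commute_both hG hD hns hA hd ea.symm eb.symm

/-- `K0` acts by scalars on the two remaining eigenspaces. -/
theorem k0_all {A : Matrix I9 I9 F} (hA : K0 ω G A) :
    ∃ (σ : F) (t : K3), σ ^ 2 = 1 ∧ aM A = σ • 1 ∧ bM A = (σ * wp ω t) • 1 := by
  have hω := hG.om
  rcases dicho_normalised hG hD (imgB hω G) (fun a ⟨C, hC, ea⟩ => ea ▸ (hG.sim_K0 hC).2)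
    (fun X hX hn M M' hM e => by
    obtain ⟨g, ⟨C, hC, eC⟩, rfl⟩ := hM
    obtain ⟨C', hC', -, eb, -⟩ := hC.conjU hG hX hn
    rw [eC, e] at eb
    rw [hX.mul_left_inj.1 eb]
    exact mem_imgB hω hC') with h | h
  · have hn := h _ (mem_imgB hω hA)
    have hu : IsUnit (bM A) := by
      obtain ⟨B, -, -, -, hb⟩ := hA.exists_inv hω
      exact IsUnit.of_mul_eq_one _ hb
    have hid : Induces ω (bM A) id := by
      intro v
      obtain ⟨w, c, hc, e⟩ := hn v
      obtain ⟨k, hk⟩ := P3_div hω v w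
      obtain ⟨A', hA', -, -, eb⟩ := k0_commutator hG hD hns hA v
      have e' : bM A' = (c * k) • P3 ω (w - v) := by
        refine ((isUnit_P3 hω v).mul hu).mul_left_inj.1 ?_
        rw [← Matrix.mul_assoc, eb, e, hk, Matrix.smul_mul, smul_smul, Matrix.smul_mul,
          Matrix.mul_assoc]
      obtain ⟨d, hd, hdd⟩ := exists_weight hω (w - v)
      obtain ⟨σ, t, hσ, -, hb1⟩ := form_of_commute hG hD hns hA' hd (by rw [e']; exact hdd _)
      refine ⟨σ * wp ω t, mul_ne_zero (fun h0 => ?_) (hω.wp_ne_zero _), ?_⟩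
      · rw [h0] at hσ; simp at hσ
      · rw [hb1, Matrix.smul_mul, Matrix.one_mul, Matrix.smul_mul] at eb
        exact eb.symm
    obtain ⟨s, e, hs, he⟩ := exists_P_of_id hω hu hid
    obtain ⟨d, hd, hdd⟩ := exists_weight hω e
    exact form_of_commute hG hD hns hA hd (by rw [he]; exact hdd _)
  · exfalso
    set Dg : Matrix K3 K3 F := Matrix.diagonal fun i => if i = 2 then 1 else -1 with hDg
    have e : InG (imgB hω G) Dg := by
      refine h Dg (uni_diag hG.fld fun i => ?_) ?_
      · split_ifs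
        · simp
        · rw [hG.fld.neg_pow, one_pow]; ring
      · rw [hDg, Matrix.det_diagonal, show (Finset.univ : Finset K3) = {0, 1, 2} from by decide,
          Finset.prod_insert (by decide), Finset.prod_insert (by decide), Finset.prod_singleton]
        simp (config := { decide := true })
    obtain ⟨g, ⟨C, hC, eC⟩, eg⟩ := e
    rw [eg] at eC
    obtain ⟨σ, t, -, -, hb⟩ := form_of_commute hG hD hns hC (d := (1, 0)) (by decide) (by
      rw [eC]
      ext i k
      rw [Matrix.diagonal_mul, Matrix.mul_diagonal, P3_apply]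
      by_cases hik : i = k
      · subst hik; ring
      · simp [hik])
    rw [eC] at hb
    have e0 := congrFun (congrFun hb 0) 0
    have e2 := congrFun (congrFun hb 2) 2
    simp [Dg, show (0 : K3) ≠ 2 from by decide] at e0 e2
    exact hG.two (by linear_combination e2 - e0)

end Main

end Cfsg.Agent.CSixNineU
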