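import Cfsg.Agent.CSixNineU.Standard
import Cfsg.Agent.CSixNine.Maximal
import Cfsg.Agent.ClassicalMax.UnitaryProper

/-!
Maximality in `SU₉(p)` of normalisers of groups of symplectic type of order `3^5`, from the
description of the overgroups in standard coordinates.
-/

set_option autoImplicit false
set_option linter.unusedSectionVars false

namespace Cfsg.Agent.CSixNineU

open Matrix Cfsg.Geo Cfsg.Agent.CSixNine
open Cfsg.Agent.Classical.U (SqField)
open Cfsg.Agent.ClassicalMax (suGL suGL_commutator suGL_not_le_subgroupNormalizer)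
open scoped MatrixGroups Matrix Kronecker commutatorElement

variable {F : Type*} [Field F] {q : ℕ} {ω : F}

lemma uni_swM (hF : SqField F q) : Uni q (swM : Matrix I9 I9 F) := by
  rw [Uni]
  ext i k
  rw [Matrix.mul_apply, Finset.sum_eq_single k.swap]
  · by_cases h : i = k
    · subst h; simp [swM]
    · simp [swM, h, hF.q_ne_zero, Ne.symm h]
  · intro b _ hb; simp [swM, hb]
  · simp

lemma uni_four (hF : SqField F q) (hω : CSixNine.Omega ω) (hconj : ω ^ q = ω ^ 2) {r : F}
    (hr : 3 * (r ^ q * r) = 1) : Uni q (r • fourM ω) := by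
  have h : star' q (fourM ω) * fourM ω = (3 : F) • 1 := by
    ext i k
    have e : (star' q (fourM ω) * fourM ω) i k = (fourM ω * fourM ω) (-i) k := by
      simp only [Matrix.mul_apply, star'_apply, fourM, Matrix.of_apply, wp_pow_q_std hω hconj, neg_mul,
        mul_comm i]
    rw [e, four_sq_apply hω, Matrix.smul_apply, smul_eq_mul, Matrix.one_apply]
    by_cases hik : i = k
    · subst hik; simp
    · simp [hik, neg_add_eq_zero]
  rw [Uni, star'_smul, Matrix.smul_mul, Matrix.mul_smul, h, smul_smul, smul_smul,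
    show r ^ q * r * 3 = 1 by linear_combination hr, one_smul]

/-- The normaliser of a group of symplectic type of order `3^5` is maximal in `SU₉(p)`, given the
dichotomy in dimension three and the description of the overgroups in standard coordinates. -/
theorem maximal_of [Fintype F] (hF : Fintype.card F = q ^ 2) (hp : q.Prime) (hp3 : q % 3 = 2)
    (hp2 : q ≠ 2)
    (hall : ∀ (ω : F) (G : Subgroup (GL I9 F)), Gen q ω G → NoSU q G →
      ∀ A : Matrix I9 I9 F, InG G A → Nrm9 ω A)
    {R : Subgroup (GL (Fin 9) F)} (hst : IsSymplecticTypeGroup 3 R)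
    (hirr : ActsAbsolutelyIrreducibly (matrixSet R))
    (hsim : R ≤ similarityGroup (Cfsg.hermForm 9 F q))
    (hZ : Nat.card (Subgroup.center R) = 3) :
    IsMaximalIn (suGL 9 F q) (subgroupNormalizer R ⊓ suGL 9 F q) := by
  classical
  have hF' : SqField F q := Classical.U.sqField_of_fintype hF
  have h5 : 5 ≤ q := by
    have := hp.two_le
    have : q ≠ 3 := by omega
    have : q ≠ 4 := fun h => by rw [h] at hp; norm_num at hp
    omega
  obtain ⟨l, k, hl, hc, he⟩ := hF'.exists_char
  have hk : k ≠ 0 := fun h => by rw [h, pow_zero] at he; omega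
  obtain rfl : l = q := (Nat.prime_dvd_prime_iff_eq hl hp).1 (he ▸ dvd_pow_self l hk)
  haveI : Fact l.Prime := ⟨hl⟩
  have hne : ∀ m : ℕ, m.Prime → m ≠ l → (m : F) ≠ 0 := fun m hm hml h =>
    hml ((Nat.prime_dvd_prime_iff_eq hl hm).1 ((CharP.cast_eq_zero_iff F l m).1 h)).symm
  have h2 : (2 : F) ≠ 0 := by exact_mod_cast hne 2 Nat.prime_two (by omega)
  have h3 : (3 : F) ≠ 0 := by exact_mod_cast hne 3 Nat.prime_three (by omega)
  obtain ⟨ω, hRD⟩ := rdata_of_group hst hirr hZ h3
  have hω := hRD.om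
  have hconj : ω ^ l = ω ^ 2 := by rw [hω.pow_mod, hp3]
  obtain ⟨φ, hφdet, hφR, hφU⟩ := exists_coord_unitary hF' hconj hRD hsim
  have hSL : ∀ g : GL (Fin 9) F, g ∈ specialLinear (Fin 9) F ↔
      Matrix.det (g : Matrix (Fin 9) (Fin 9) F) = 1 := fun g =>
    GeoClasses.mem_specialLinear_iff
  haveI : Fact (Nat.Prime 3) := ⟨Nat.prime_three⟩
  haveI : Finite R := Nat.finite_of_card_ne_zero (by rw [hRD.card]; norm_num)
  haveI : Group.IsNilpotent R := hst.pGroup.isNilpotent
  have hne9 : ¬ suGL 9 F l ≤ subgroupNormalizer R :=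
    suGL_not_le_subgroupNormalizer hF' (by norm_num)
      (by rw [show ((9 : ℕ) : F) = 3 * 3 by norm_num]; exact mul_ne_zero h3 h3) hirr
      (MaxSub.commutator_le_center_of_cyclic_char hst.cyclic_of_characteristic
        (by rw [hst.exponent_eq, hZ]; rfl))
      (fun z hz => MaxSub.exists_scalar_of_mem_center hirr hz) (by omega)
  refine ⟨lt_of_le_not_ge inf_le_right fun hle => hne9 (hle.trans inf_le_left), fun M hM hMS => ?_⟩
  have hnorm : ∀ g : GL (Fin 9) F, Nrm9 ω (φ g : Matrix I9 I9 F) → g ∈ subgroupNormalizer R := by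
    intro g hg
    refine Subgroup.mem_normalizer_fintype fun x hx => ?_
    have h1 := (hφR (φ x)).1 (by rw [φ.symm_apply_apply]; exact hx)
    have h2 := (hφR _).2 (conj_std hω hg h1)
    rwa [← map_inv, ← map_mul, ← map_mul, φ.symm_apply_apply] at h2
  -- the overgroup in standard coordinates, extended by the scalars
  let G : Subgroup (GL I9 F) :=
    { carrier := {x | ∃ c : F, c ≠ 0 ∧ ∃ g ∈ M, (x : Matrix I9 I9 F) = c • (φ g : Matrix I9 I9 F)}
      one_mem' := ⟨1, one_ne_zero, 1, one_mem M, by rw [map_one, one_smul]⟩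
      mul_mem' := by
        rintro a b ⟨c, hc, g, hg, ea⟩ ⟨d, hd, h, hh, eb⟩
        exact ⟨c * d, mul_ne_zero hc hd, g * h, mul_mem hg hh, by
          rw [Units.val_mul, ea, eb, Matrix.smul_mul, Matrix.mul_smul, smul_smul, map_mul,
            Units.val_mul]⟩
      inv_mem' := by
        rintro a ⟨c, hc, g, hg, ea⟩
        refine ⟨c⁻¹, inv_ne_zero hc, g⁻¹, inv_mem hg, ?_⟩
        refine a.isUnit.mul_right_inj.1 ?_
        rw [Units.mul_inv, ea, Matrix.smul_mul, Matrix.mul_smul, smul_smul, mul_inv_cancel₀ hc,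
          one_smul, ← Units.val_mul, ← map_mul, mul_inv_cancel, map_one, Units.val_one] }
  -- weight normalisers with a unitary multiple of determinant one
  have hmem : ∀ (W : Matrix I9 I9 F) (c : F), Nrm9 ω W → c ^ 9 * Matrix.det W = 1 →
      Uni l (c • W) → InG G W := by
    intro W c hn hd hu
    have hc : c ≠ 0 := by rintro rfl; simp at hd
    have hW : IsUnit W := (Matrix.isUnit_iff_isUnit_det _).2
      (isUnit_iff_ne_zero.2 fun h => by simp [h] at hd)
    have hdet1 : Matrix.det (c • W) = 1 := by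
      rw [Matrix.det_smul, show Fintype.card I9 = 9 by simp [Fintype.card_prod], hd]
    have hcW : IsUnit (c • W) :=
      (Matrix.isUnit_iff_isUnit_det _).2 (by rw [hdet1]; exact isUnit_one)
    set g : GL (Fin 9) F := φ.symm hcW.unit with hg
    have eg : (φ g : Matrix I9 I9 F) = c • W := by
      rw [hg, φ.apply_symm_apply, IsUnit.unit_spec]
    have hgM : g ∈ M := by
      refine hM ⟨hnorm g ?_, ?_, (hSL g).2 ?_⟩
      · rw [eg]; exact hn.smul c
      · exact (hφU g).2 (by rw [eg]; exact hu)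
      · rw [← hφdet, eg, hdet1]
    exact ⟨hW.unit, ⟨c⁻¹, inv_ne_zero hc, g, hgM, by
      rw [eg, IsUnit.unit_spec, smul_smul, inv_mul_cancel₀ hc, one_smul]⟩, hW.unit_spec⟩
  have hdl : ∀ A : Matrix K3 K3 F,
      Matrix.det (A ⊗ₖ (1 : Matrix K3 K3 F)) = Matrix.det A ^ 3 := fun A => by
    rw [Matrix.det_kronecker, Matrix.det_one, one_pow, mul_one, ZMod.card]
  let R3 : Cfsg.Agent.SLThree.Symp.Root3 F := ⟨ω, hω.eqn, h2, hω.three⟩
  have hr : R3.r ^ l = -R3.r := by
    have h3p : (3 : F) ^ l = 3 := by rw [← frobenius_def, map_ofNat]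
    rw [Cfsg.Agent.SLThree.Symp.Root3.r, div_pow, hF'.neg_pow, hF'.sub_pow, ← pow_mul, mul_comm 2 l,
      pow_mul, show R3.ω = ω from rfl, hconj, h3p]
    field_simp
    linear_combination ω * hω.cube
  have hr3 : 3 * (R3.r ^ l * R3.r) = 1 := by rw [hr]; linear_combination -R3.r_sq
  have hone : Uni l (1 : Matrix K3 K3 F) := Uni.one hF'
  have hG : Gen l ω G :=
    { fld := hF'
      prime := hl
      five := h5
      conj := hconj
      om := hω
      two := h2
      sim := by
        rintro x ⟨c, hc, g, hg, e⟩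
        rw [e]
        exact ((hφU g).1 (hMS hg).1).sim.smul hc
      scal := by
        intro c hc
        have hu : IsUnit (c • (1 : Matrix I9 I9 F)) := IsUnit.of_mul_eq_one (c⁻¹ • 1) (by
          rw [Matrix.smul_mul, Matrix.one_mul, smul_smul, mul_inv_cancel₀ hc, one_smul])
        exact ⟨hu.unit, ⟨c, hc, 1, one_mem M, by rw [IsUnit.unit_spec, map_one, Units.val_one]⟩,
          hu.unit_spec⟩
      lX := hmem _ 1 (Nrm9.kron (fun v => ⟨v, _, hω.wp_ne_zero _, P3_comm hω (1, 0) v⟩) Nrm3.one)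
        (by rw [hdl, det_P3_X hω]; simp)
        (by rw [one_smul]; exact uni_kron hF' (uni_P3_std hF' hω hconj _) hone)
      lY := hmem _ 1 (Nrm9.kron (fun v => ⟨v, _, hω.wp_ne_zero _, P3_comm hω (0, 1) v⟩) Nrm3.one)
        (by rw [hdl, det_P3_Y]; simp)
        (by rw [one_smul]; exact uni_kron hF' (uni_P3_std hF' hω hconj _) hone)
      lT := hmem _ 1 (Nrm9.kron (Nrm3.of_induces (tau_P3 hω)) Nrm3.one)
        (by rw [hdl, det_tau hω, one_pow, one_mul, ← pow_mul, mul_comm, pow_mul, hω.cube, one_pow])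
        (by rw [one_smul, tau_eq]; exact uni_kron hF' (uni_diag_wp hF' hω hconj _) hone)
      lF := hmem _ R3.r (Nrm9.kron (Nrm3.of_induces (four_P3 hω)) Nrm3.one)
        (by
          rw [hdl]
          have h := det_four R3
          calc R3.r ^ 9 * Matrix.det (fourM ω) ^ 3 = (R3.r ^ 3 * Matrix.det (fourM ω)) ^ 3 := by ring
            _ = 1 := by rw [h, one_pow])
        (by rw [← Matrix.smul_kronecker]; exact uni_kron hF' (uni_four hF' hω hconj hr3) hone)
      swp := hmem _ (-1) Nrm9.swap (by rw [det_swM]; norm_num) (by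
        rw [Uni, star'_smul, Matrix.smul_mul, Matrix.mul_smul, uni_swM hF', smul_smul,
          hF'.neg_pow, one_pow]
        norm_num)
      cx := hmem _ 1 (Nrm9.cx hω) (by rw [det_cx hω]; simp)
        (by rw [one_smul, cx_eq]; exact uni_diag_wp hF' hω hconj _) }
  by_cases hns : NoSU l G
  · left
    refine le_antisymm (fun g hg => ⟨hnorm g ?_, hMS hg⟩) hM
    exact hall ω G hG hns _ ⟨φ g, ⟨1, one_ne_zero, g, hg, (one_smul _ _).symm⟩, rfl⟩
  · right
    have hle := not_not.1 hns
    refine le_antisymm hMS ?_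
    have key : ∀ a ∈ suGL 9 F l, ∃ g ∈ M, ∀ x : GL (Fin 9) F, a * x * a⁻¹ = g * x * g⁻¹ := by
      intro a ha
      obtain ⟨y, ⟨c, hc, g, hg, e⟩, hy⟩ := hle (φ a : Matrix I9 I9 F) ((hφU a).1 ha.1)
        (by rw [hφdet]; exact (hSL a).1 ha.2)
      rw [hy] at e
      refine ⟨g, hg, fun x => ?_⟩
      have hz : ∀ y : GL I9 F, ((φ g)⁻¹ * φ a) * y = y * ((φ g)⁻¹ * φ a) := by
        intro y
        refine Units.ext ?_
        simp only [Units.val_mul, e, Matrix.mul_smul, Units.inv_mul, Matrix.smul_mul, Matrix.one_mul,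
          Matrix.mul_one]
      have hcen : g⁻¹ * a * x = x * (g⁻¹ * a) := φ.injective (by
        simpa only [map_mul, map_inv] using hz (φ x))
      calc a * x * a⁻¹ = g * (g⁻¹ * a * x) * a⁻¹ := by group
        _ = g * (x * (g⁻¹ * a)) * a⁻¹ := by rw [hcen]
        _ = g * x * g⁻¹ := by group
    rw [← suGL_commutator hF' (show 3 ≤ 9 by norm_num) (by omega), Subgroup.commutator_le]
    intro a ha b hb
    obtain ⟨g, hg, hga⟩ := key a ha
    obtain ⟨h, hh, hhb⟩ := key b hb
    have e : ⁅a, b⁆ = ⁅g, h⁆ := by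
      simp only [commutatorElement_def]
      calc a * b * a⁻¹ * b⁻¹ = g * b * g⁻¹ * b⁻¹ := by rw [hga b]
        _ = g * (b * g⁻¹ * b⁻¹) := by group
        _ = g * (h * g⁻¹ * h⁻¹) := by rw [hhb g⁻¹]
        _ = g * h * g⁻¹ * h⁻¹ := by group
    rw [e, commutatorElement_def]
    exact mul_mem (mul_mem (mul_mem hg hh) (inv_mem hg)) (inv_mem hh)

end Cfsg.Agent.CSixNineU
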