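import Cfsg.Agent.CSixNineU.Blocks

/-!
No element of the overgroup acts as a weight operator on one block and trivially on the others.
-/

set_option autoImplicit false
set_option linter.unusedSectionVars false

namespace Cfsg.Agent.CSixNineU

open Matrix Cfsg.Agent.CSixNine
open Cfsg.Agent.Classical.U (SqField)
open scoped MatrixGroups Matrix Kronecker

variable {F : Type*} [Field F] {q : ℕ} {ω : F} {G : Subgroup (GL I9 F)}

namespace Gen

variable (hG : Gen q ω G)
include hG

lemma diag_root (i₀ : K3) (t : K3) : InG G (eBlk i₀ (wp ω t • (1 : Matrix K3 K3 F))) := by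
  have h1 : InG G (Dm ω ⊗ₖ (1 : Matrix K3 K3 F)) := by
    have hsq : InG G ((tauM ω * tauM ω) ⊗ₖ (1 : Matrix K3 K3 F)) := by
      have := hG.lT.mul hG.lT
      rwa [kron_mul, Matrix.one_mul] at this
    have := hG.smul hG.om.ne_zero hsq
    rw [← Matrix.smul_kronecker] at this
    convert this using 2
    rw [Dm, tauM, Matrix.diagonal_mul_diagonal, ← Matrix.diagonal_smul]
    congr 1; funext i
    by_cases h : i = 0
    · simp [h]
    · simp [h]; linear_combination -hG.om.cube
  have hD : InG G (eBlk 0 (ω • (1 : Matrix K3 K3 F))) := by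
    convert h1 using 1
    rw [Dm, ← blk_scalar, eBlk]; congr 1; funext i
    by_cases h : i = 0 <;> simp [h]
  have hn : ∀ n : ℕ, InG G (eBlk 0 ((ω ^ n) • (1 : Matrix K3 K3 F))) := by
    intro n
    induction n with
    | zero => simp only [eBlk, pow_zero, one_smul, ite_self, blk_one]; exact InG.one
    | succ n ih =>
      have := ih.mul hD
      rw [eBlk, eBlk, blk_mul] at this
      convert this using 1
      rw [eBlk]; congr 1; funext i
      by_cases h : i = 0
      · simp [h, smul_smul, pow_succ, mul_comm]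
      · simp [h]
  have := hG.translate (hn t.val) i₀
  simpa [eBlk, wp, sub_eq_zero] using this

lemma eBlk_move {A : Matrix K3 K3 F} {i₀ : K3} (h : InG G (eBlk i₀ A)) (j : K3) :
    InG G (eBlk j A) := by
  have := hG.translate h (j - i₀)
  convert this using 1
  simp only [eBlk]; congr 1; funext i
  by_cases hi : i = j
  · subst hi; simp
  · rw [if_neg hi, if_neg]; intro e; exact hi (by linear_combination e)

/-- One weight operator on a block gives all of them. -/
lemma eBlk_all {i₀ : K3} {r : K3 × K3} {s : F} (hs : s ^ 3 = 1) (hr : r ≠ 0)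
    (h : InG G (eBlk i₀ (s • P3 ω r))) (v : K3 × K3) (hv : v ≠ 0) :
    InG G (eBlk 0 (P3 ω v)) := by
  have clean : ∀ (j : K3) (w : K3 × K3) (c : F), c ^ 3 = 1 → InG G (eBlk j (c • P3 ω w)) →
      InG G (eBlk 0 (P3 ω w)) := by
    intro j w c hc hw
    have hc0 : c ≠ 0 := fun h0 => by simp [h0] at hc
    obtain ⟨t, ht⟩ := hG.om.exists_wp (show c⁻¹ ^ 3 = 1 by rw [inv_pow, hc, inv_one])
    have := (hG.diag_root j t).mul hw
    rw [eBlk, eBlk, blk_mul] at this
    refine hG.eBlk_move (i₀ := j) ?_ 0
    convert this using 1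
    rw [eBlk]; congr 1; funext i
    by_cases hi : i = j
    · simp [hi, ← ht, smul_smul, mul_inv_cancel₀ hc0]
    · simp [hi]
  obtain ⟨a, b, c, rfl⟩ := word_transitive r v hr hv
  have step : ∀ (T : K3 × K3 → K3 × K3) (W : Matrix K3 K3 F),
      InG G (W ⊗ₖ (1 : Matrix K3 K3 F)) → Induces ω W T → ∀ (n : ℕ) (w : K3 × K3),
      InG G (eBlk 0 (P3 ω w)) → InG G (eBlk 0 (P3 ω (T^[n] w))) := by
    intro T W hW hI n w hw
    induction n with
    | zero => simpa using hw
    | succ n ih =>
      rw [Function.iterate_succ_apply']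
      obtain ⟨k, hk, e⟩ := hI (T^[n] w)
      have hk3 : k ^ 3 = 1 := by
        have hWu : IsUnit W := by
          obtain ⟨g, -, rfl⟩ := mem_comp (hG.rep_blk hW) 0
          exact g.isUnit
        set Q := P3 ω (T^[n] w)
        set Q' := P3 ω (T (T^[n] w))
        have h2 : W * (Q * Q * Q) = (k ^ 3) • (Q' * Q' * Q' * W) := by
          calc W * (Q * Q * Q) = (W * Q) * Q * Q := by simp only [Matrix.mul_assoc]
            _ = (k • (Q' * W)) * Q * Q := by rw [e]
            _ = k • (Q' * (W * Q) * Q) := by simp only [Matrix.smul_mul, Matrix.mul_assoc]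
            _ = k • (Q' * (k • (Q' * W)) * Q) := by rw [e]
            _ = (k * k) • (Q' * Q' * (W * Q)) := by
                simp only [Matrix.mul_smul, Matrix.smul_mul, smul_smul, Matrix.mul_assoc]
            _ = (k ^ 3) • (Q' * Q' * Q' * W) := by
                rw [e]; simp only [Matrix.mul_smul, smul_smul, Matrix.mul_assoc]; congr 1; ring
        rw [pow_three_smul hG.om, pow_three_smul hG.om, Matrix.mul_one, Matrix.one_mul] at h2
        exact (smul_left_injective F hWu.ne_zero ((one_smul F W).trans h2)).symm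
      refine clean 0 _ k hk3 ((hG.rep_blk hW).conj ih ?_)
      rw [eBlk, eBlk, blk_mul, blk_mul]; congr 1; funext i
      by_cases hi : i = 0
      · simp [hi, e]
      · simp [hi]
  exact step _ _ hG.lT (tau_P3 hG.om) _ _ (step _ _ hG.lF (four_P3 hG.om) _ _
    (step _ _ hG.lT (tau_P3 hG.om) _ _ (clean i₀ r s hs h)))

end Gen

/-- No element is a weight operator on one block only. -/
theorem no_eBlk [Finite F] (hG : Gen q ω G) (hD : Dicho q ω) (hns : NoSU q G) {i₀ : K3} {r : K3 × K3} {s : F}
    (hs : s ^ 3 = 1) (hr : r ≠ 0) : ¬ InG G (eBlk i₀ (s • P3 ω r)) := by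
  intro h
  have h2 := hG.two
  have h3 := hG.om.three
  have he := hG.eBlk_all hs hr h (1, 0) (by decide)
  -- move to the other factor
  have hDb : InG G (blk fun i => Dm (wp ω i)) := by
    convert hG.sw_mem he using 1
    ext ⟨p, q⟩ ⟨u, v⟩
    by_cases h2' : q = v
    · subst h2'
      by_cases h1 : p = u
      · subst h1
        by_cases h4 : q = 0 <;> simp [sw, eBlk, blk, Dm, P3_apply, h4]
      · by_cases h4 : q = 0 <;> simp [sw, eBlk, blk, Dm, P3_apply, h4, h1]
    · by_cases h1 : p = u <;> simp [sw, eBlk, blk, Dm, Matrix.diagonal, h1, h2']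
  have hWp : ∀ i : K3, fourM ω * Dm (wp ω i) = Em (wp ω i) * fourM ω := by
    intro i
    obtain rfl | rfl | rfl : i = 0 ∨ i = 1 ∨ i = 2 := by revert i; decide
    · have hD1 : Dm (1 : F) = 1 := by simp [Dm]
      have hE1 : Em (1 : F) = 1 := by ext p q; simp [Em]
      rw [wp_zero, hD1, hE1, Matrix.mul_one, Matrix.one_mul]
    · rw [wp_one]; exact four_mul_Dm hG.om
    · rw [show wp ω 2 = ω ^ 2 from rfl, ← Dm_sq, ← Em_sq hG.om, ← Matrix.mul_assoc,
        four_mul_Dm hG.om, Matrix.mul_assoc, four_mul_Dm hG.om, Matrix.mul_assoc]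
  have hEb : InG G (blk fun i => Em (wp ω i)) :=
    (hG.rep_blk hG.lF).conj hDb (by rw [blk_mul, blk_mul]; congr 1; funext i; exact hWp i)
  have hK := (hDb.mul hEb).mul hDb
  rw [blk_mul, blk_mul] at hK
  have hK2 := hK.mul hK
  rw [blk_mul] at hK2
  have hval : (fun i : K3 => Dm (wp ω i) * Em (wp ω i) * Dm (wp ω i) *
      (Dm (wp ω i) * Em (wp ω i) * Dm (wp ω i))) =
      fun i => if i = 0 then (1 : Matrix K3 K3 F) else -Pim := by
    funext i
    obtain rfl | rfl | rfl : i = 0 ∨ i = 1 ∨ i = 2 := by revert i; decide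
    · have hD1 : Dm (1 : F) = 1 := by simp [Dm]
      have hE1 : Em (1 : F) = 1 := by ext p q; simp [Em]
      rw [wp_zero, hD1, hE1, if_pos rfl]; simp
    · rw [wp_one, if_neg (by decide)]; exact braid hG.om
    · rw [show wp ω 2 = ω ^ 2 from rfl, if_neg (by decide)]; exact braid (omega_sq hG.om)
  rw [hval] at hK2
  have hPi : InG G ((Pim : Matrix K3 K3 F) ⊗ₖ (1 : Matrix K3 K3 F)) := by
    have hsq := hG.lF.mul hG.lF
    rw [kron_mul, Matrix.one_mul] at hsq
    have := hG.smul (inv_ne_zero h3) hsq
    rw [← Matrix.smul_kronecker] at this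
    convert this using 2
    rw [four_sq hG.om]; ext i k
    by_cases hik : i + k = 0 <;> simp [Pim, hik, h3]
  have hk := hK2.mul (hG.rep_blk hPi)
  rw [blk_mul] at hk
  have hk' := hG.smul (neg_ne_zero.2 (one_ne_zero (α := F))) hk
  rw [blk_smul] at hk'
  set W' : Matrix K3 K3 F := (2 : F)⁻¹ • (1 + Pim) with hW'
  set C' : Matrix K3 K3 F := (2 : F)⁻¹ • (1 - Pim) with hC'
  have hWW : W' * W' = W' := by
    rw [hW', Matrix.smul_mul, Matrix.mul_smul, smul_smul, add_mul, mul_add, mul_add, Pim_sq,
      one_mul, mul_one, one_mul]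
    match_scalars <;> field_simp <;> ring
  have hWC : W' * C' = 0 := by
    rw [hW', hC', Matrix.smul_mul, Matrix.mul_smul, smul_smul, add_mul, mul_sub, mul_sub, Pim_sq,
      one_mul, mul_one, one_mul]
    match_scalars <;> ring
  have hCW : C' * W' = 0 := by
    rw [hW', hC', Matrix.smul_mul, Matrix.mul_smul, smul_smul, sub_mul, mul_add, mul_add, Pim_sq,
      one_mul, mul_one, one_mul]
    match_scalars <;> ring
  have hCC : C' * C' = C' := by
    rw [hC', Matrix.smul_mul, Matrix.mul_smul, smul_smul, sub_mul, mul_sub, mul_sub, Pim_sq,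
      one_mul, mul_one, one_mul]
    match_scalars <;> field_simp <;> ring
  have hsum : W' + C' = 1 := by
    rw [hW', hC']; match_scalars <;> field_simp <;> ring
  let Y : Matrix K3 K3 F → Prop := fun g => InG G (g ⊗ₖ W' + (1 : Matrix K3 K3 F) ⊗ₖ C')
  have Ymul : ∀ {g g'}, Y g → Y g' → Y (g * g') := by
    intro g g' hg hg'
    have := hg.mul hg'
    rwa [add_mul, mul_add, mul_add, kron_mul, kron_mul, kron_mul, kron_mul, hWW, hWC, hCW, hCC,
      Matrix.kronecker_zero, Matrix.kronecker_zero, add_zero, zero_add, Matrix.one_mul] at this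
  have Yconj : ∀ {W g g'}, InG G (W ⊗ₖ (1 : Matrix K3 K3 F)) → W * g = g' * W → Y g → Y g' := by
    intro W g g' hW e hg
    refine hW.conj hg ?_
    rw [mul_add, add_mul, kron_mul, kron_mul, kron_mul, kron_mul, e, Matrix.one_mul,
      Matrix.one_mul, Matrix.mul_one, Matrix.mul_one, Matrix.mul_one, Matrix.one_mul]
  have Y0 : Y (Matrix.diagonal fun i => if i = 0 then (-1 : F) else 1) := by
    show InG G _
    have hblk : ∀ e : K3 → F, Matrix.diagonal e ⊗ₖ W' + (1 : Matrix K3 K3 F) ⊗ₖ C' =
        blk fun i => e i • W' + C' := by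
      intro e
      ext ⟨p, q⟩ ⟨u, v⟩
      by_cases hpu : p = u <;> simp [blk, Matrix.diagonal, hpu]
    rw [hblk]
    convert hk' using 2
    funext i
    by_cases hi : i = 0
    · simp only [if_pos hi, Matrix.one_mul, hW', hC']
      match_scalars <;> field_simp <;> ring
    · simp only [if_neg hi, Matrix.neg_mul, Pim_sq, one_smul, hsum, neg_smul, smul_neg, neg_neg]
  have Y1 : Y (Matrix.diagonal fun i => if i = 1 then (-1 : F) else 1) := by
    refine Yconj (W := P3 ω (0, 1)) (hG.lft_P (0, 1)) ?_ Y0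
    ext i k
    rw [Matrix.mul_diagonal, Matrix.diagonal_mul, P3_apply]
    by_cases hik : i = k + 1
    · subst hik
      by_cases hk0 : k = 0
      · subst hk0; simp
      · simp [hk0]
    · simp [hik]
  set d : Matrix K3 K3 F := Matrix.diagonal fun i => if i = 2 then (1 : F) else -1 with hd
  have Yd : Y d := by
    have := Ymul Y0 Y1
    rw [Matrix.diagonal_mul_diagonal] at this
    convert this using 2
    congr 1; funext i
    obtain rfl | rfl | rfl : i = 0 ∨ i = 1 ∨ i = 2 := by revert i; decide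
    all_goals simp (config := { decide := true })
  have hdd : d * d = 1 := by
    rw [hd, Matrix.diagonal_mul_diagonal, ← Matrix.diagonal_one]; congr 1; funext i
    by_cases h' : i = 2 <;> simp [h']
  -- the group normalising `Y`
  let H₀ : Subgroup (GL K3 F) :=
    { carrier := {a | ∀ g, Y g ↔ Y ((a : Matrix K3 K3 F) * g * ((a⁻¹ : GL K3 F) : Matrix K3 K3 F))}
      one_mem' := fun g => by simp
      mul_mem' := by
        intro a b ha hb g
        rw [hb g, ha]
        simp [Matrix.mul_assoc]
      inv_mem' := by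
        intro a ha g
        rw [inv_inv, ha (((a⁻¹ : GL K3 F) : Matrix K3 K3 F) * g * (a : Matrix K3 K3 F))]
        have : (a : Matrix K3 K3 F) * (((a⁻¹ : GL K3 F) : Matrix K3 K3 F) * g * (a : Matrix K3 K3 F)) *
            ((a⁻¹ : GL K3 F) : Matrix K3 K3 F) = g := by
          simp [Matrix.mul_assoc]
        rw [this] }
  let H : Subgroup (GL K3 F) := H₀ ⊓ simGrp hG.fld
  have hmem : ∀ {A B : Matrix K3 K3 F}, A * B = 1 → B * A = 1 →
      (∀ g, Y g → Y (A * g * B)) → (∀ g, Y g → Y (B * g * A)) → InG H₀ A := by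
    intro A B hAB hBA hu hd'
    refine ⟨⟨A, B, hAB, hBA⟩, fun g => ⟨hu g, fun hg => ?_⟩, rfl⟩
    have := hd' _ hg
    simp only [Units.inv_mk] at this
    convert this using 1
    simp only [← Matrix.mul_assoc, hBA, Matrix.one_mul]
    rw [Matrix.mul_assoc, hBA, Matrix.mul_one]
  have hinf : ∀ {A : Matrix K3 K3 F}, InG H₀ A → Sim q A → InG H A := by
    rintro A ⟨a, ha, rfl⟩ hs
    exact ⟨a, ⟨ha, hs⟩, rfl⟩
  have hlft : ∀ {A : Matrix K3 K3 F}, InG G (A ⊗ₖ (1 : Matrix K3 K3 F)) → InG H A := by
    intro A hA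
    obtain ⟨a, -, rfl⟩ := mem_comp (hG.rep_blk hA) 0
    have hA' : InG G (((a⁻¹ : GL K3 F) : Matrix K3 K3 F) ⊗ₖ (1 : Matrix K3 K3 F)) :=
      hA.of_mul_eq_one (by rw [kron_mul, a.mul_inv, Matrix.one_mul, Matrix.one_kronecker_one])
    refine hinf (hmem a.mul_inv a.inv_mul (fun g => Yconj hA ?_) (fun g => Yconj hA' ?_))
      (sim_block hG.fld (hG.sim_mem (hG.rep_blk hA)) 0)
    · simp [Matrix.mul_assoc]
    · simp [Matrix.mul_assoc]
  have hdU : Uni q d := by
    rw [hd, Uni, star'_diagonal hG.fld, Matrix.diagonal_mul_diagonal, ← Matrix.diagonal_one]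
    congr 1; funext i
    by_cases h' : i = 2 <;> simp [h', hG.fld.neg_pow]
  have hHd : InG H d := hinf (hmem hdd hdd (fun g hg => Ymul (Ymul Yd hg) Yd)
    (fun g hg => Ymul (Ymul Yd hg) Yd)) hdU.sim
  rcases hD H (fun c hc => hlft (by rw [Matrix.smul_kronecker, Matrix.one_kronecker_one]; exact hG.scal c hc))
    (hlft hG.lX) (hlft hG.lY) (hlft hG.lT) (hlft hG.lF) (fun g hg => hg.2) with hN | hS
  · obtain ⟨w, c, hc, e⟩ := hN d hHd (0, 1)
    have e10 := congrFun (congrFun e 1) 0
    have e21 := congrFun (congrFun e 2) 1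
    have e02 := congrFun (congrFun e 0) 2
    simp only [hd, Matrix.diagonal_mul, Matrix.smul_apply, Matrix.mul_diagonal, P3_apply,
      zero_mul, wp_zero, zero_add, smul_eq_mul] at e10 e21 e02
    by_cases hw : w.2 = 1
    · rw [hw] at e10 e21 e02
      simp (config := { decide := true }) at e10 e21 e02
      -- `e10 : c * wp = 1`, `e21`, `e02`
      have t1 : c * wp ω w.1 = 1 := by linear_combination -e10
      have t2 : c * wp ω (w.1 * 2) = -1 := by linear_combination e21
      have t3 : c = -1 := by linear_combination -e02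
      rw [t3] at t1 t2
      have u1 : wp ω w.1 = -1 := by linear_combination -t1
      have u3 : wp ω (w.1 * 3) = wp ω w.1 * wp ω w.1 * wp ω w.1 := by
        rw [← hG.om.wp_add, ← hG.om.wp_add]; congr 1; ring
      rw [show w.1 * 3 = 0 from by rw [show (3 : K3) = 0 from by decide, mul_zero], wp_zero, u1] at u3
      exact h2 (by linear_combination u3)
    · have : (1 : K3) ≠ 0 + w.2 := by simpa using Ne.symm hw
      simp (config := { decide := true }) [Ne.symm hw] at e10
  · let S : Subgroup (GL K3 F) :=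
      { carrier := {a | Y (a : Matrix K3 K3 F)}
        one_mem' := by
          show InG G (((1 : GL K3 F) : Matrix K3 K3 F) ⊗ₖ W' + (1 : Matrix K3 K3 F) ⊗ₖ C')
          rw [Units.val_one, ← Matrix.kronecker_add, hsum, Matrix.one_kronecker_one]
          exact InG.one
        mul_mem' := by
          intro a b ha hb
          show Y ((a * b : GL K3 F) : Matrix K3 K3 F)
          rw [Units.val_mul]
          exact Ymul ha hb
        inv_mem' := by
          intro a ha
          refine InG.of_mul_eq_one ha ?_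
          rw [add_mul, mul_add, mul_add, kron_mul, kron_mul, kron_mul, kron_mul, hWW, hWC, hCW, hCC,
            Matrix.kronecker_zero, Matrix.kronecker_zero, add_zero, zero_add, Matrix.one_mul,
            a.mul_inv, ← Matrix.kronecker_add, hsum, Matrix.one_kronecker_one] }
    have hconj : ∀ A M M' : Matrix K3 K3 F, Uni q A → Matrix.det A = 1 → InG S M →
        A * M = M' * A → InG S M' := by
      rintro A M M' hA hA1 ⟨m, hm, rfl⟩ e
      obtain ⟨a, ha, rfl⟩ := hS A hA hA1
      refine ⟨a * m * a⁻¹, ?_, by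
        rw [Units.val_mul, Units.val_mul, e, Matrix.mul_assoc, Units.mul_inv, Matrix.mul_one]⟩
      show Y ((a * m * a⁻¹ : GL K3 F) : Matrix K3 K3 F)
      rw [Units.val_mul, Units.val_mul]
      exact (ha.1 (m : Matrix K3 K3 F)).1 hm
    have hdS : InG S d := by
      have hu : IsUnit d := IsUnit.of_mul_eq_one d hdd
      exact ⟨hu.unit, (show Y _ from by rw [IsUnit.unit_spec]; exact Yd), hu.unit_spec⟩
    have full := normal_three hG.fld hG.prime hG.five S hconj hdS hdU (fun c hc => by
      have e1 := congrFun (congrFun hc 1) 1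
      have e2 := congrFun (congrFun hc 2) 2
      simp (config := { decide := true }) [hd] at e1 e2
      exact h2 (by linear_combination e2 - e1))
    obtain ⟨t, ht, et⟩ := full (Matrix.diagonal fun i : K3 => wp ω (i + 1)) (by
      rw [Uni, star'_diagonal hG.fld, Matrix.diagonal_mul_diagonal, ← Matrix.diagonal_one]
      congr 1; funext i
      exact wp_pow_q hG.om hG.conj _) (by
      rw [Matrix.det_diagonal, show (Finset.univ : Finset K3) = {0, 1, 2} from by decide,
        Finset.prod_insert (by decide), Finset.prod_insert (by decide), Finset.prod_singleton,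
        ← hG.om.wp_add, ← hG.om.wp_add,
        show (0 : K3) + 1 + ((1 + 1) + (2 + 1)) = 0 from by decide, wp_zero])
    have hY : InG G ((t : Matrix K3 K3 F) ⊗ₖ W' + (1 : Matrix K3 K3 F) ⊗ₖ C') := ht
    rw [et] at hY
    have e : (Matrix.diagonal fun i : K3 => wp ω (i + 1)) ⊗ₖ W' + (1 : Matrix K3 K3 F) ⊗ₖ C' =
        blk fun i => wp ω (i + 1) • W' + C' := by
      ext ⟨p, r⟩ ⟨u, v⟩
      by_cases hpu : p = u <;> simp [blk, Matrix.diagonal, hpu]
    rw [e] at hY
    have hg := good hG hD hns hY 0
    have hne : ω + 1 ≠ 0 := fun h => by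
      have : (1 : F) = 0 := by linear_combination hG.om.eqn - ω * h
      exact one_ne_zero this
    refine not_nrm3_homology hG.om ?_ ?_ ?_ ?_ ?_ ?_ ?_ ?_ ?_ hg <;>
      simp (config := { decide := true }) [hW', hC', Pim, wp_one]
    · exact fun h => hG.om.ne_zero (by linear_combination h - ω * mul_inv_cancel₀ h2)
    · exact fun h => hne (by linear_combination 2 * h - (ω + 1) * mul_inv_cancel₀ h2)
    · refine fun h => h3 ?_
      have h1 : ω = 1 := by linear_combination 2 * h - (ω - 1) * mul_inv_cancel₀ h2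
      linear_combination hG.om.eqn - (ω + 2) * h1

end Cfsg.Agent.CSixNineU
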