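import Cfsg.Agent.CSixNineU.Basic
import Cfsg.Agent.MaxSub.CSixU.Trans
import Cfsg.Agent.DecompMax.UnitGen

/-!
Two ways to the special unitary group: a non-scalar element of a subgroup that is normalised by the
special unitary group in dimension three, and the blocks of dimension three in dimension nine.
-/

set_option autoImplicit false
set_option linter.unusedSectionVars false

namespace Cfsg.Agent.CSixNineU

open Matrix Cfsg.Agent.CSixNine Cfsg.Agent.Classical.U Cfsg.Agent.DecompMax.UN
  Cfsg.Agent.DecompMax.UF Cfsg.Agent.MaxSub.CSixU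
open scoped MatrixGroups Matrix Kronecker

universe u

variable {F : Type u} [Field F] {n q : ℕ} {ι : Type} [Fintype ι] [DecidableEq ι]

/-- An isometry of coordinates as an invertible matrix over another index type. -/
noncomputable def ugGL (q : ℕ) (e : ι ≃ Fin n) : UG n F q →* GL ι F :=
  MonoidHom.toHomUnits
    { toFun := fun g => (LinearMap.toMatrix' (g.1 : (Fin n → F) →ₗ[F] (Fin n → F))).submatrix e e
      map_one' := by
        rw [OneMemClass.coe_one, show ((1 : (Fin n → F) ≃ₗ[F] (Fin n → F)) :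
          (Fin n → F) →ₗ[F] (Fin n → F)) = LinearMap.id from rfl, LinearMap.toMatrix'_id,
          Matrix.submatrix_one_equiv]
      map_mul' := fun g h => by
        rw [Matrix.submatrix_mul_equiv, ← LinearMap.toMatrix'_comp]; rfl }

lemma ugGL_val (e : ι ≃ Fin n) (g : UG n F q) : ((ugGL q e g : GL ι F) : Matrix ι ι F) =
    (LinearMap.toMatrix' (g.1 : (Fin n → F) →ₗ[F] (Fin n → F))).submatrix e e := rfl

lemma ugGL_apply (e : ι ≃ Fin n) (g : UG n F q) (i j : ι) :
    (ugGL q e g : Matrix ι ι F) i j = g.1 (Pi.single (e j) 1) (e i) := by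
  rw [ugGL_val, Matrix.submatrix_apply, LinearMap.toMatrix'_apply]
  rfl

lemma ugGL_mulVec (e : ι ≃ Fin n) (g : UG n F q) (v : Fin n → F) (i : ι) :
    g.1 v (e i) = ((ugGL q e g : Matrix ι ι F) *ᵥ fun j => v (e j)) i := by
  have h := congrFun (congrArg (fun l : (Fin n → F) →ₗ[F] (Fin n → F) => l v)
    (Matrix.toLin'_toMatrix' (g.1 : (Fin n → F) →ₗ[F] (Fin n → F)))) (e i)
  rw [Matrix.toLin'_apply, Matrix.mulVec, dotProduct] at h
  refine h.symm.trans ?_
  rw [Matrix.mulVec, dotProduct, ← e.sum_comp]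
  rfl

lemma det_ugGL (e : ι ≃ Fin n) (g : UG n F q) :
    (ugGL q e g : Matrix ι ι F).det = ((LinearEquiv.det g.1 : Fˣ) : F) := by
  rw [ugGL_val, Matrix.det_submatrix_equiv_self, LinearMap.det_toMatrix', LinearEquiv.coe_det]

section

variable (hF : SqField F q)
include hF

lemma uni_ugGL (e : ι ≃ Fin n) (g : UG n F q) : Uni q (ugGL q e g : Matrix ι ι F) := by
  refine Matrix.ext fun b a => ?_
  have h := UG_app g (Pi.single (e a) (1 : F)) (Pi.single (e b) (1 : F))
  rw [herm_single_one _ hF.q_ne_zero, herm_def, ← e.sum_comp] at h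
  simp only [Matrix.mul_apply, star'_apply, ugGL_apply, Matrix.one_apply]
  rw [Finset.sum_congr rfl fun i _ => mul_comm _ _]
  refine h.trans ?_
  simp [Pi.single_apply]

/-- Every isometric matrix comes from an isometry. -/
lemma exists_ugGL (e : ι ≃ Fin n) {M : Matrix ι ι F} (hM : Uni q M) :
    ∃ g : UG n F q, (ugGL q e g : Matrix ι ι F) = M := by
  set N : Matrix (Fin n) (Fin n) F := M.submatrix e.symm e.symm with hN
  have hU : star' q N * N = 1 := by
    rw [show star' q N = (star' q M).submatrix e.symm e.symm from rfl, hN,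
      Matrix.submatrix_mul_equiv, hM, Matrix.submatrix_one_equiv]
  have hdet : IsUnit N.det := by
    have h := congrArg Matrix.det hU
    rw [Matrix.det_mul, Matrix.det_one] at h
    exact .of_mul_eq_one_right _ h
  set a : GL (Fin n) F := Matrix.GeneralLinearGroup.mk'' N hdet with ha
  refine ⟨⟨glEquiv n F a, fun u v => ?_⟩, ?_⟩
  · rw [glEquiv_apply, glEquiv_apply, show (a : Matrix (Fin n) (Fin n) F) = N from rfl, herm_def,
      herm_def]
    have hent : ∀ j k, ∑ i, N i j * N i k ^ q = if k = j then 1 else 0 := fun j k => by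
      have := congrFun (congrFun hU k) j
      simp only [Matrix.mul_apply, star'_apply, Matrix.one_apply] at this
      rw [← this]
      exact Finset.sum_congr rfl fun i _ => mul_comm _ _
    calc ∑ i, (N *ᵥ u) i * (N *ᵥ v) i ^ q
        = ∑ i, ∑ j, ∑ k, (u j * v k ^ q) * (N i j * N i k ^ q) := Finset.sum_congr rfl fun i _ => by
          simp only [Matrix.mulVec, dotProduct]
          rw [hF.sum_pow, Finset.sum_mul_sum]
          exact Finset.sum_congr rfl fun j _ => Finset.sum_congr rfl fun k _ => by ring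
      _ = ∑ j, ∑ k, (u j * v k ^ q) * ∑ i, N i j * N i k ^ q := by
          rw [Finset.sum_comm]
          refine Finset.sum_congr rfl fun j _ => ?_
          rw [Finset.sum_comm]
          exact Finset.sum_congr rfl fun k _ => by rw [Finset.mul_sum]
      _ = ∑ i, u i * v i ^ q := by simp [hent]
  · refine Matrix.ext fun i j => ?_
    rw [ugGL_apply, glEquiv_apply, show (a : Matrix (Fin n) (Fin n) F) = N from rfl,
      Matrix.mulVec_single_one]
    simp [hN]

lemma exists_sug (e : ι ≃ Fin n) {M : Matrix ι ι F} (hM : Uni q M) (hd : M.det = 1) :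
    ∃ g ∈ SUG n F q, (ugGL q e g : Matrix ι ι F) = M := by
  obtain ⟨g, hg⟩ := exists_ugGL hF e hM
  refine ⟨g, ?_, hg⟩
  rw [mem_SUG]
  exact Units.ext (by rw [← det_ugGL e g, hg, hd, Units.val_one])

/-- The matrix of a transvection. -/
lemma ugGL_trv (e : ι ≃ Fin n) {w : Fin n → F} {a : F} (h : TrvCond q w a) (i j : ι) :
    (ugGL q e (trv hF h) : Matrix ι ι F) i j =
      (if i = j then 1 else 0) + a * w (e j) ^ q * w (e i) := by
  rw [ugGL_apply, trv_apply, herm_one_single]
  simp [Pi.single_apply]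

end

/-- A non-scalar isometry in a subgroup normalised by the special unitary group of dimension
three. -/
theorem normal_three (hF : SqField F q) (hq : q.Prime) (h5 : 5 ≤ q) (S : Subgroup (GL K3 F))
    (hN : ∀ A M M' : Matrix K3 K3 F, Uni q A → Matrix.det A = 1 → InG S M → A * M = M' * A →
      InG S M')
    {f : Matrix K3 K3 F} (hf : InG S f) (hfU : Uni q f) (hfs : ∀ c : F, f ≠ c • 1) :
    ∀ M, Uni q M → Matrix.det M = 1 → InG S M := by
  set e : K3 ≃ Fin 3 := Equiv.refl (Fin 3) with he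
  set P : Subgroup (UG 3 F q) := S.comap (ugGL q e) with hP
  have hiff : ∀ g, g ∈ P ↔ InG S (ugGL q e g : Matrix K3 K3 F) := fun g =>
    ⟨fun h => ⟨_, h, rfl⟩, fun ⟨k, hk, hk'⟩ =>
      Subgroup.mem_comap.2 ((Units.ext hk' : k = ugGL q e g) ▸ hk)⟩
  have hnorm : ∀ t ∈ TG 3 F q, ∀ k ∈ P, t * k * t⁻¹ ∈ P := fun t ht k hk => by
    refine (hiff _).2 (hN _ _ _ (uni_ugGL hF e t) ?_ ((hiff k).1 hk) ?_)
    · rw [det_ugGL, mem_SUG.1 (TG_le_SUG hF ht), Units.val_one]
    · rw [← Units.val_mul, ← Units.val_mul, ← map_mul, ← map_mul, inv_mul_cancel_right]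
  obtain ⟨g, hg⟩ := exists_ugGL hF e hfU
  have hgP : g ∈ P := (hiff g).2 (hg.symm ▸ hf)
  have hgs : ¬ ∃ c : F, ∀ v, g.1 v = c • v := by
    rintro ⟨c, hc⟩
    refine hfs c (Matrix.ext fun i j => ?_)
    rw [← hg, ugGL_apply, hc]
    simp [Pi.single_apply, Matrix.one_apply]
  have hall : TG 3 F q ≤ P := TG_le_of_all_ctr hF fun v hv =>
    all_ctr_of_normal hF hq (by omega) (by omega) (by omega) hnorm hgP hgs hv
  intro M hM hd
  obtain ⟨g', hg', rfl⟩ := exists_sug hF e hM hd
  rw [SUG_eq_TG hF (by omega) (by omega)] at hg'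
  exact (hiff g').1 (hall hg')

/-- A transposition of two coordinates with all signs changed. -/
def turn (a b : K3) : Matrix K3 K3 F := (-1 : Matrix K3 K3 F).submatrix (Equiv.swap a b) id

lemma det_turn {a b : K3} (hab : a ≠ b) : (turn a b : Matrix K3 K3 F).det = 1 := by
  rw [turn, Matrix.det_permute, Equiv.Perm.sign_swap hab, Matrix.det_neg, Matrix.det_one,
    ZMod.card]
  norm_num

lemma uni_turn (hF : SqField F q) (a b : K3) : Uni q (turn a b : Matrix K3 K3 F) := by
  have h : star' q (-1 : Matrix K3 K3 F) = -1 := by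
    refine Matrix.ext fun i j => ?_
    rw [star'_apply, Matrix.neg_apply, Matrix.neg_apply, hF.neg_pow]
    by_cases hij : i = j
    · subst hij; simp
    · simp [hij, Ne.symm hij, hF.q_ne_zero]
  rw [Uni, turn, show star' q ((-1 : Matrix K3 K3 F).submatrix (Equiv.swap a b) id) =
    (star' q (-1 : Matrix K3 K3 F)).submatrix id (Equiv.swap a b) from rfl,
    Matrix.submatrix_mul_equiv, h, neg_mul_neg, one_mul, Matrix.submatrix_id_id]

lemma swM_mul_self : (swM * swM : Matrix I9 I9 F) = 1 := by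
  refine Matrix.ext fun p r => ?_
  rw [Matrix.mul_apply, Finset.sum_eq_single p.swap]
  · simp [swM, Matrix.one_apply, Prod.swap_inj]
  · intro b _ hb
    have : p ≠ b.swap := fun h => hb (by rw [h, Prod.swap_swap])
    simp [swM, this]
  · simp

section

variable {G : Subgroup (GL I9 F)}

lemma sw_block_mem (hblk : ∀ (i : K3) M, Uni q M → Matrix.det M = 1 → InG G (eBlk i M))
    (hsw : InG G swM) (i : K3) {M : Matrix K3 K3 F} (hM : Uni q M) (hd : M.det = 1) :
    InG G (sw (eBlk i M)) := by
  have h := (hsw.mul (hblk i M hM hd)).mul hsw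
  rwa [swM_mul, Matrix.mul_assoc, swM_mul_self, Matrix.mul_one] at h

variable (hF : SqField F q)
include hF

/-- The transvection matrix of a vector in one block. -/
lemma ugGL_trv_block (e : I9 ≃ Fin 9) {w : Fin 9 → F} {a : F} (h : TrvCond q w a) (f : I9 ≃ I9)
    (i : K3) (hs : ∀ x : I9, (f x).1 ≠ i → w (e x) = 0) :
    ∃ A : Matrix K3 K3 F, Uni q A ∧ A.det = 1 ∧
      (ugGL q e (trv hF h) : Matrix I9 I9 F) = (eBlk i A).submatrix f f := by
  set u : Fin 3 → F := fun k => w (e (f.symm (i, k))) with hu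
  have hu' : TrvCond q u a := by
    refine ⟨?_, h.2⟩
    rw [← h.1, herm_def, herm_def, ← e.sum_comp, ← f.symm.sum_comp, Fintype.sum_prod_type,
      Finset.sum_eq_single i]
    · rfl
    · intro b _ hb
      refine Finset.sum_eq_zero fun k _ => ?_
      rw [hs _ (by simpa using hb), zero_mul]
    · simp
  set e3 : K3 ≃ Fin 3 := Equiv.refl (Fin 3)
  refine ⟨_, uni_ugGL hF e3 (trv hF hu'), ?_, Matrix.ext fun x y => ?_⟩
  · rw [det_ugGL, mem_SUG.1 (TG_le_SUG hF (trv_mem hF hu')), Units.val_one]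
  rw [ugGL_trv, Matrix.submatrix_apply]
  obtain ⟨⟨i', k⟩, rfl⟩ := f.symm.surjective x
  obtain ⟨⟨j', l⟩, rfl⟩ := f.symm.surjective y
  simp only [eBlk, blk, Matrix.of_apply, Equiv.apply_symm_apply, EmbeddingLike.apply_eq_iff_eq,
    Prod.mk.injEq]
  by_cases h1 : i' = j'
  · subst h1
    by_cases h2 : i' = i
    · subst h2
      rw [if_pos rfl, if_pos rfl, ugGL_trv]
      simp [hu]
      rfl
    · rw [if_pos rfl, if_neg h2, hs (f.symm (i', k)) (by simpa using h2)]
      simp [Matrix.one_apply]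
  · rw [if_neg (fun h => h1 h.1), if_neg h1]
    by_cases h2 : i' = i
    · have h3 : j' ≠ i := fun h => h1 (h2.trans h.symm)
      rw [hs (f.symm (j', l)) (by simpa using h3), zero_pow hF.q_ne_zero]
      simp
    · rw [hs (f.symm (i', k)) (by simpa using h2)]
      simp

theorem ctr_pair (hblk : ∀ (i : K3) M, Uni q M → Matrix.det M = 1 → InG G (eBlk i M))
    (hsw : InG G swM) (e : I9 ≃ Fin 9) (x y : I9) (w : Fin 9 → F) (hw : herm q w w = 0)
    (hs : supp w ⊆ {e x, e y}) : w ∈ ctr hF (G.comap (ugGL q e)) := by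
  have hz : ∀ (w' : Fin 9 → F) (r s t : I9), supp w' ⊆ {e r, e s} → t ≠ r → t ≠ s →
      w' (e t) = 0 := fun w' r s t h' hr hs' => by
    by_contra hne
    have := h' (mem_supp.2 hne)
    simp only [Finset.mem_insert, Finset.mem_singleton, EmbeddingLike.apply_eq_iff_eq] at this
    tauto
  have hrow : ∀ (r s : I9) (w' : Fin 9 → F), r.1 = s.1 → herm q w' w' = 0 →
      supp w' ⊆ {e r, e s} → w' ∈ ctr hF (G.comap (ugGL q e)) := fun r s w' hrs hw' hs' =>
    ⟨hw', fun a ha => by
      obtain ⟨A, hA, hd, hAe⟩ := ugGL_trv_block hF e ha (Equiv.refl I9) r.1 fun t ht =>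
        hz w' r s t hs' (fun h => ht (by rw [h]; rfl)) (fun h => ht (by rw [h, hrs]; rfl))
      obtain ⟨g, hg, hgA⟩ := hblk r.1 A hA hd
      have : ugGL q e (trv hF ha) = g := Units.ext (by rw [hAe, hgA]; rfl)
      exact Subgroup.mem_comap.2 (this ▸ hg)⟩
  have hcol : ∀ (r s : I9) (w' : Fin 9 → F), r.2 = s.2 → herm q w' w' = 0 →
      supp w' ⊆ {e r, e s} → w' ∈ ctr hF (G.comap (ugGL q e)) := fun r s w' hrs hw' hs' =>
    ⟨hw', fun a ha => by
      obtain ⟨A, hA, hd, hAe⟩ := ugGL_trv_block hF e ha (Equiv.prodComm K3 K3) r.2 fun t ht =>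
        hz w' r s t hs' (fun h => ht (by rw [h]; rfl)) (fun h => ht (by rw [h, hrs]; rfl))
      obtain ⟨g, hg, hgA⟩ := sw_block_mem hblk hsw r.2 hA hd
      have : ugGL q e (trv hF ha) = g := Units.ext (by rw [hAe, hgA]; rfl)
      exact Subgroup.mem_comap.2 (this ▸ hg)⟩
  obtain ⟨i, k⟩ := x
  obtain ⟨j, l⟩ := y
  rcases eq_or_ne i j with hij | hij
  · exact hrow (i, k) (j, l) w hij hw hs
  rcases eq_or_ne k l with hkl | hkl
  · exact hcol (i, k) (j, l) w hkl hw hs
  obtain ⟨g, hg, hgA⟩ := sw_block_mem hblk hsw l (uni_turn hF i j) (det_turn hij)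
  have hUni : Uni q (sw (eBlk l (turn i j : Matrix K3 K3 F))) := by
    have h1 : Uni q (eBlk l (turn i j : Matrix K3 K3 F)) := by
      rw [Uni, eBlk, star'_blk hF, blk_mul]
      convert blk_one (F := F) using 2
      funext t
      by_cases ht : t = l
      · simp only [ht, if_true]
        exact uni_turn hF i j
      · simp [ht, star'_one hF]
    rw [Uni, show star' q (sw (eBlk l (turn i j : Matrix K3 K3 F))) =
      sw (star' q (eBlk l (turn i j : Matrix K3 K3 F))) from rfl, ← sw_mul, h1, sw_one]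
  obtain ⟨p, hp⟩ := exists_ugGL hF e hUni
  have hpG : p ∈ G.comap (ugGL q e) := by
    have : ugGL q e p = g := Units.ext (hp.trans hgA.symm)
    exact Subgroup.mem_comap.2 (this ▸ hg)
  have hval : ∀ t : I9, p.1 w (e t) ≠ 0 → t = (i, k) ∨ t = (i, l) := by
    rintro ⟨a, b⟩ ht
    rw [ugGL_mulVec, hp, Matrix.mulVec, dotProduct] at ht
    obtain ⟨⟨c, d⟩, -, hcd⟩ := Finset.exists_ne_zero_of_sum_ne_zero ht
    have hwne : w (e (c, d)) ≠ 0 := right_ne_zero_of_mul hcd
    have hent : sw (eBlk l (turn i j : Matrix K3 K3 F)) (a, b) (c, d) ≠ 0 := left_ne_zero_of_mul hcd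
    simp only [sw, eBlk, blk, Matrix.submatrix_apply, Prod.swap_prod_mk, Matrix.of_apply] at hent
    obtain rfl : b = d := by
      by_contra h
      rw [if_neg h] at hent
      exact hent rfl
    rw [if_pos rfl] at hent
    have hmem : (c, b) = (i, k) ∨ (c, b) = (j, l) := by
      by_contra h
      push Not at h
      exact hwne (hz w (i, k) (j, l) _ hs h.1 h.2)
    rcases hmem with h | h
    · obtain ⟨rfl, rfl⟩ := Prod.mk.injEq _ _ _ _ ▸ h
      rw [if_neg hkl, Matrix.one_apply] at hent
      left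
      by_contra h'
      exact hent (if_neg fun hac => h' (by rw [hac]))
    · obtain ⟨rfl, rfl⟩ := Prod.mk.injEq _ _ _ _ ▸ h
      rw [if_pos rfl, turn, Matrix.submatrix_apply, Matrix.neg_apply, id, neg_ne_zero,
        Matrix.one_apply] at hent
      right
      have hac : Equiv.swap i c a = c := by
        by_contra h'
        exact hent (if_neg h')
      rw [Equiv.swap_apply_eq_iff, Equiv.swap_apply_right] at hac
      rw [hac]
  have hctr : p.1 w ∈ ctr hF (G.comap (ugGL q e)) := by
    refine hrow (i, k) (i, l) _ rfl (by rw [UG_app]; exact hw) fun z hz' => ?_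
    obtain ⟨t, rfl⟩ := e.surjective z
    rcases hval t (mem_supp.1 hz') with rfl | rfl <;> simp
  have := ctr_map hF hctr (inv_mem hpG)
  rwa [inv_app hF] at this

/-- The blocks of dimension three and the exchange of the factors give the special unitary group. -/
theorem su9_of_blocks (hq : q.Prime) (h5 : 5 ≤ q)
    (hblk : ∀ (i : K3) M, Uni q M → Matrix.det M = 1 → InG G (eBlk i M)) (hsw : InG G swM) :
    ∀ M : Matrix I9 I9 F, Uni q M → Matrix.det M = 1 → InG G M := by
  classical
  have := char_eq_of_prime hF hq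
  have h2 : (2 : F) ≠ 0 := fun h => by
    have h' : q ∣ 2 := (CharP.cast_eq_zero_iff F q 2).1 (by exact_mod_cast h)
    have := Nat.le_of_dvd two_pos h'
    omega
  set e : I9 ≃ Fin 9 := Fintype.equivFinOfCardEq (by simp) with he
  set P : Subgroup (UG 9 F q) := G.comap (ugGL q e) with hP
  have hpair : ∀ i j : Fin 9, ∀ v, herm q v v = 0 → supp v ⊆ {i, j} → v ∈ ctr hF P := by
    intro i j v hv hs
    exact ctr_pair hF hblk hsw e (e.symm i) (e.symm j) v hv (by simpa using hs)
  have hall : ∀ d v, herm q v v = 0 → (supp v).card ≤ d → v ∈ ctr hF P := by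
    intro d
    induction d with
    | zero =>
      intro v hv hc
      exact hpair 0 0 v hv (by simp [Finset.card_eq_zero.1 (Nat.le_zero.1 hc)])
    | succ d ih =>
      intro v hv hc
      rcases Nat.lt_or_ge (supp v).card 3 with h3 | h3
      · interval_cases hk : (supp v).card
        · exact hpair 0 0 v hv (by simp [Finset.card_eq_zero.1 hk])
        · obtain ⟨i, hi⟩ := Finset.card_eq_one.1 hk
          exact hpair i i v hv (by simp [hi])
        · obtain ⟨i, j, -, hi⟩ := Finset.card_eq_two.1 hk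
          exact hpair i j v hv hi.le
      obtain ⟨i, j, k, hi, hj, hk, hij, hik, hjk⟩ := Finset.two_lt_card_iff.1
        (show 2 < (supp v).card by omega)
      rw [mem_supp] at hi hj hk
      have good : ∀ a b, a ≠ b → v a ≠ 0 → v b ≠ 0 → v a * v a ^ q + v b * v b ^ q ≠ 0 →
          v ∈ ctr hF P := fun a b hab ha hb hs =>
        ctr_of_pair hF hab (hpair a b) hv hb hs (fun u hu hlt _ => ih u hu (by omega)) ha
      by_cases h1 : v i * v i ^ q + v j * v j ^ q = 0
      · by_cases h2' : v i * v i ^ q + v k * v k ^ q = 0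
        · refine good j k hjk hj hk fun h3' => ?_
          have : (2 : F) * (v i * v i ^ q) = 0 := by linear_combination h1 + h2' - h3'
          exact mul_ne_zero hi (pow_ne_zero _ hi) ((mul_eq_zero.1 this).resolve_left h2)
        · exact good i k hik hi hk h2'
      · exact good i j hij hi hj h1
  have hTG : TG 9 F q ≤ P := TG_le_of_all_ctr hF fun v hv => hall _ v hv le_rfl
  intro M hM hd
  obtain ⟨g, hg, rfl⟩ := exists_sug hF e hM hd
  rw [SUG_eq_TG hF (by omega) (by omega)] at hg
  exact ⟨_, Subgroup.mem_comap.1 (hTG hg), rfl⟩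

end

end Cfsg.Agent.CSixNineU
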