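import Cfsg.Agent.CSixNineU.Base
import Cfsg.Agent.CSixNineU.Trans

/-!
Subgroups of similitudes in dimension three normalised by the weight normaliser, and a reflection
which does not normalise the weight lines.
-/

set_option autoImplicit false
set_option linter.unusedSectionVars false

namespace Cfsg.Agent.CSixNineU

open Matrix Cfsg.Agent.CSixNine
open Cfsg.Agent.Classical.U (SqField)
open scoped MatrixGroups Matrix Kronecker Pointwise

variable {F : Type*} [Field F] {q : ℕ} {ω : F} {G : Subgroup (GL I9 F)}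

/-- The similitudes in dimension three. -/
def simGrp (hF : SqField F q) : Subgroup (GL K3 F) where
  carrier := {g | Sim q (g : Matrix K3 K3 F)}
  one_mem' := by
    show Sim q ((1 : GL K3 F) : Matrix K3 K3 F)
    rw [Units.val_one]; exact Sim.one hF
  mul_mem' := fun {a b} ha hb => by
    show Sim q ((a * b : GL K3 F) : Matrix K3 K3 F)
    rw [Units.val_mul]; exact ha.mul hF hb
  inv_mem' := fun {a} ha => Sim.of_mul_eq_one hF ha a.mul_inv

/-- A similitude conjugates isometries to isometries. -/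
lemma Uni.conj (hF : SqField F q) {f f' P : Matrix K3 K3 F} (hf : Sim q f) (hff : f * f' = 1)
    (hP : Uni q P) : Uni q (f * P * f') := by
  obtain ⟨c, hc, e⟩ := hf
  have h2 : star' q f' * star' q f = 1 := by rw [← star'_mul hF, hff, star'_one hF]
  have e2 : star' q f = c • f' := by
    calc star' q f = star' q f * f * f' := by rw [Matrix.mul_assoc, hff, Matrix.mul_one]
      _ = c • f' := by rw [e, Matrix.smul_mul, Matrix.one_mul]
  rw [e2] at h2
  rw [Uni, star'_mul hF, star'_mul hF]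
  calc star' q f' * (star' q P * star' q f) * (f * P * f') =
      star' q f' * (star' q P * (star' q f * f) * P) * f' := by simp only [Matrix.mul_assoc]
    _ = star' q f' * (c • f') := by
        rw [e, Matrix.mul_smul, Matrix.mul_one, Matrix.smul_mul, hP, Matrix.mul_smul,
          Matrix.mul_one, Matrix.smul_mul, Matrix.mul_smul]
    _ = 1 := h2

/-- A homology about `e₁ + e₂` or `e₁ - e₂` of ratio other than `± 1` moves a weight line. -/
lemma not_nrm3_homology (hω : CSixNine.Omega ω) {A : Matrix K3 K3 F} (h00 : A 0 0 ≠ 0)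
    (h01 : A 0 1 = 0) (h02 : A 0 2 = 0) (h10 : A 1 0 = 0) (h20 : A 2 0 = 0) (hd : A 2 2 = A 1 1)
    (hd' : A 2 1 = A 1 2) (ha : A 1 1 ≠ 0) (hb : A 1 2 ≠ 0) : ¬ Nrm3 ω A := by
  intro h
  obtain ⟨w, c, hc, e⟩ := h (1, 0)
  have E : ∀ i k : K3, A i k * wp ω k = c * (wp ω (w.1 * i) * A (i - w.2) k) := by
    intro i k
    have := congrFun (congrFun e i) k
    rw [mul_P3_apply, Matrix.smul_apply, P3_mul_apply, smul_eq_mul] at this
    simpa using this
  have hcol : ∀ j : K3, j ≠ 0 → A j 0 = 0 := by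
    intro j hj
    obtain rfl | rfl : j = 1 ∨ j = 2 := by revert j; decide
    exacts [h10, h20]
  have hw : w.2 = 0 := by
    by_contra hne
    have := E 0 0
    rw [hcol (0 - w.2) (by simpa using hne), mul_zero, mul_zero, wp_zero, mul_one] at this
    exact h00 this
  have e00 := E 0 0
  have e11 := E 1 1
  have e12 := E 1 2
  simp only [hw, sub_zero, mul_zero, mul_one, wp_zero, one_mul] at e00 e11 e12
  have hc1 : c = 1 := mul_right_cancel₀ h00 (by rw [one_mul]; exact e00.symm)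
  rw [hc1, one_mul] at e11 e12
  have t1 : wp ω 1 = wp ω w.1 := mul_left_cancel₀ ha (by rw [e11]; ring)
  have t2 : wp ω 2 = wp ω w.1 := mul_left_cancel₀ hb (by rw [e12]; ring)
  exact absurd (hω.wp_inj (t1.trans t2.symm)) (by decide)

lemma det_P3_eq (hω : CSixNine.Omega ω) (v : K3 × K3) : Matrix.det (P3 ω v) ^ 3 = 1 := by
  rw [← Matrix.det_pow, pow_succ, pow_two, pow_three_smul hω, Matrix.det_one]

/-- A subgroup normalised by the weight normaliser lies in it or contains the special unitary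
group. -/
theorem dicho_normalised [Finite F] (hG : Gen q ω G) (hD : Dicho q ω) (S : Subgroup (GL K3 F))
    (hS : ∀ g ∈ S, Sim q (g : Matrix K3 K3 F))
    (hN : ∀ A : Matrix K3 K3 F, IsUnit A → Nrm3 ω A → ∀ M M' : Matrix K3 K3 F,
      InG S M → A * M = M' * A → InG S M') :
    (∀ M, InG S M → Nrm3 ω M) ∨
      ∀ M, Uni q M → Matrix.det M = 1 → InG S M := by
  have hω := hG.om
  have hF := hG.fld
  have hle : N3 hω ≤ Subgroup.normalizer (S : Set (GL K3 F)) := by
    have conj : ∀ n ∈ N3 hω, ∀ s ∈ S, n * s * n⁻¹ ∈ S := by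
      intro n hn s hs
      obtain ⟨g, hg, e⟩ := hN (n : Matrix K3 K3 F) n.isUnit hn (s : Matrix K3 K3 F)
        ((n * s * n⁻¹ : GL K3 F) : Matrix K3 K3 F) ⟨s, hs, rfl⟩
        (by rw [← Units.val_mul, ← Units.val_mul, inv_mul_cancel_right])
      rwa [← Units.ext e]
    intro n hn
    rw [Subgroup.mem_normalizer_iff]
    refine fun s => ⟨conj n hn s, fun hs => ?_⟩
    have := conj n⁻¹ (inv_mem hn) _ hs
    simpa [mul_assoc] using this
  set H : Subgroup (GL K3 F) := S ⊔ N3 hω with hH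
  have hmem : ∀ M : Matrix K3 K3 F, IsUnit M → Nrm3 ω M → InG H M := fun M hM hn =>
    ⟨hM.unit, Subgroup.mem_sup_right (show Nrm3 ω (hM.unit : Matrix K3 K3 F) by
      rwa [IsUnit.unit_spec]), hM.unit_spec⟩
  have hHS : H ≤ Subgroup.normalizer (S : Set (GL K3 F)) := sup_le Subgroup.le_normalizer hle
  have hHsim : H ≤ simGrp hF :=
    sup_le hS fun n hn => sim_nrm3 hF hω hG.conj n.isUnit hn
  have hgen : ∀ M : Matrix K3 K3 F, InG G (M ⊗ₖ (1 : Matrix K3 K3 F)) → Nrm3 ω M → InG H M :=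
    fun M hM hn => hmem M (isUnit_block (hG.rep_blk hM) 0) hn
  rcases hD H
    (fun c hc => hmem _ (IsUnit.of_mul_eq_one (c⁻¹ • 1) (by
      rw [Matrix.smul_mul, Matrix.one_mul, smul_smul, mul_inv_cancel₀ hc, one_smul]))
      (smul_nrm3 c))
    (hgen _ hG.lX fun v => ⟨v, _, hω.wp_ne_zero _, P3_comm hω (1, 0) v⟩)
    (hgen _ hG.lY fun v => ⟨v, _, hω.wp_ne_zero _, P3_comm hω (0, 1) v⟩)
    (hgen _ hG.lT (Nrm3.of_induces (tau_P3 hω)))
    (hgen _ hG.lF (Nrm3.of_induces (four_P3 hω))) (fun g hg => hHsim hg) with h | h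
  · left
    rintro M ⟨g, hg, rfl⟩
    exact h _ ⟨g, Subgroup.mem_sup_left hg, rfl⟩
  by_cases hall : ∀ M, InG S M → Nrm3 ω M
  · exact Or.inl hall
  right
  have hconj : ∀ A M M' : Matrix K3 K3 F, Uni q A → Matrix.det A = 1 → InG S M →
      A * M = M' * A → InG S M' := by
    rintro A M M' hA hA1 ⟨s, hs, rfl⟩ e
    obtain ⟨a, ha, rfl⟩ := h A hA hA1
    refine ⟨a * s * a⁻¹, (Subgroup.mem_normalizer_iff.1 (hHS ha) s).1 hs, ?_⟩
    rw [Units.val_mul, Units.val_mul, e, Matrix.mul_assoc, Units.mul_inv, Matrix.mul_one]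
  push Not at hall
  obtain ⟨f, hf, hfn⟩ := hall
  obtain ⟨f', hf', hff, hff'⟩ := hf.exists_inv
  obtain ⟨v, hv⟩ : ∃ v, ∀ k : F, f * P3 ω v ≠ k • (P3 ω v * f) := by
    by_contra hcon
    push Not at hcon
    refine hfn fun v => ?_
    obtain ⟨k, hk⟩ := hcon v
    refine ⟨v, k, fun h0 => ?_, hk⟩
    rw [h0, zero_smul] at hk
    exact (hf.isUnit.mul (isUnit_P3 hω v)).ne_zero hk
  obtain ⟨P', hP⟩ := (isUnit_P3 hω v).exists_right_inv
  have hP' : P' * P3 ω v = 1 := mul_eq_one_comm.1 hP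
  have hin : InG S (P3 ω v * f' * P') := by
    refine hN (P3 ω v) (isUnit_P3 hω v) (fun u => ⟨u, _, hω.wp_ne_zero _, P3_comm hω v u⟩) f' _ hf' ?_
    rw [Matrix.mul_assoc _ P', hP', Matrix.mul_one]
  have hu := uni_P3 hF hω hG.conj v
  have hu' : Uni q P' := Uni.of_mul_eq_one hF hu hP
  obtain ⟨g, hg, eg⟩ := hf
  have hfsim : Sim q f := eg ▸ hS g hg
  refine normal_three hF hG.prime hG.five S hconj
    (f := f * P3 ω v * f' * P') ?_ ((Uni.conj hF hfsim hff hu).mul hF hu') ?_
  · simpa only [Matrix.mul_assoc] using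
      (show InG S f from ⟨g, hg, eg⟩).mul hin
  · intro k hk
    refine hv k ?_
    calc f * P3 ω v = f * P3 ω v * f' * P' * P3 ω v * f := by
          rw [Matrix.mul_assoc (f * P3 ω v * f') P', hP', Matrix.mul_one,
            Matrix.mul_assoc (f * P3 ω v) f', hff', Matrix.mul_one]
      _ = k • (P3 ω v * f) := by
          rw [hk, Matrix.smul_mul, Matrix.one_mul, Matrix.smul_mul]

end Cfsg.Agent.CSixNineU
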