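import Cfsg.Agent.CSixNineU.Basic
import Cfsg.Agent.CSixNine.Standard
import Cfsg.Agent.ClassConj.Unitary

/-!
Unitary standard coordinates for an absolutely irreducible group of symplectic type of order `3^5`
consisting of similitudes.
-/

set_option autoImplicit false
set_option linter.unusedSectionVars false

namespace Cfsg.Agent.CSixNineU

open Matrix Cfsg.Geo Cfsg.Agent.CSixNine
open Cfsg.Agent.Classical.U (SqField)
open scoped MatrixGroups Matrix Kronecker

variable {F : Type*} [Field F] {q n : ℕ} {ι κ μ : Type} [Fintype ι] [Fintype κ] [Fintype μ]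
  [DecidableEq ι] [DecidableEq κ] [DecidableEq μ] {ω : F}

lemma star'_star' (hF : SqField F q) (A : Matrix ι κ F) : star' q (star' q A) = A := by
  ext i j; simp [hF.pow_pow]

/-- Unitary matrices are the members of the general unitary group. -/
lemma mem_GU_iff_star (hF : SqField F q) (g : GL (Fin n) F) :
    g ∈ Cfsg.GU n F q ↔ Uni q (g : Matrix (Fin n) (Fin n) F) := by
  rw [ClassConj.mem_GU_iff_cstar hF]
  exact Iff.rfl

/-- A similitude of the standard form satisfies the matrix identity. -/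
lemma sim_of_similarity (hF : SqField F q) {g : GL (Fin n) F}
    (hg : g ∈ similarityGroup (Cfsg.hermForm n F q)) :
    ∃ c : F, c ≠ 0 ∧
      star' q (g : Matrix (Fin n) (Fin n) F) * (g : Matrix (Fin n) (Fin n) F) = c • 1 := by
  obtain ⟨c, hc⟩ := hg
  refine ⟨c, c.ne_zero, ?_⟩
  ext j i
  have h := hc (Pi.single i 1) (Pi.single j 1)
  simp only [Cfsg.hermForm, Matrix.mulVec_single_one, Matrix.col_apply] at h
  have e : (star' q (g : Matrix (Fin n) (Fin n) F) * (g : Matrix (Fin n) (Fin n) F)) j i =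
      ∑ k, (g : Matrix (Fin n) (Fin n) F) k i * (g : Matrix (Fin n) (Fin n) F) k j ^ q := by
    rw [Matrix.mul_apply]
    exact Finset.sum_congr rfl fun k _ => by rw [star'_apply, mul_comm]
  rw [e, h, Finset.sum_eq_single i (fun b _ hb => by simp [hb]) (by simp)]
  rcases eq_or_ne j i with rfl | hij
  · simp
  · simp [hij.symm, hF.q_ne_zero, hij]

lemma neg_eq_two_mul : ∀ a : K3, -a = 2 * a := by decide

lemma wp_pow_q_std (hω : CSixNine.Omega ω) (hconj : ω ^ q = ω ^ 2) (t : K3) :
    wp ω t ^ q = wp ω (-t) := by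
  rw [wp, ← pow_mul, mul_comm, pow_mul, hconj, ← pow_mul, ← hω.wp_natCast, Nat.cast_mul,
    ZMod.natCast_zmod_val, neg_eq_two_mul]
  norm_num

lemma uni_diag_wp (hF : SqField F q) (hω : CSixNine.Omega ω) (hconj : ω ^ q = ω ^ 2) (f : ι → K3) :
    Uni q (Matrix.diagonal fun i => wp ω (f i)) := by
  rw [Uni, star'_diagonal hF, Matrix.diagonal_mul_diagonal]
  simp [wp_pow_q_std hω hconj, ← hω.wp_add]

lemma uni_kron (hF : SqField F q) {A B : Matrix K3 K3 F} (hA : Uni q A) (hB : Uni q B) :
    Uni q (A ⊗ₖ B) := by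
  rw [Uni, star'_kronecker, kron_mul, hA, hB, Matrix.one_kronecker_one]

lemma uni_P3_std (hF : SqField F q) (hω : CSixNine.Omega ω) (hconj : ω ^ q = ω ^ 2) (v : K3 × K3) :
    Uni q (P3 ω v) := by
  rw [Uni]
  ext i k
  rw [mul_P3_apply, star'_apply, P3_apply]
  by_cases h : i = k
  · subst h
    rw [if_pos rfl, wp_pow_q_std hω hconj, ← hω.wp_add, neg_add_cancel, wp_zero, Matrix.one_apply_eq]
  · rw [if_neg (by simpa using Ne.symm h), zero_pow hF.q_ne_zero, zero_mul, Matrix.one_apply_ne h]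

lemma uni_P9 (hF : SqField F q) (hω : CSixNine.Omega ω) (hconj : ω ^ q = ω ^ 2) (v : W9) :
    Uni q (P9 ω v) :=
  uni_kron hF (uni_P3_std hF hω hconj _) (uni_P3_std hF hω hconj _)

lemma sym9_nondeg : ∀ e : W9, (∀ v : W9, sym9 e v = 0) → e = 0 := by decide +kernel

/-- A matrix commuting with all weight operators is scalar. -/
lemma scalar_of_commute9 (hω : CSixNine.Omega ω) {A : Matrix I9 I9 F} (hA : IsUnit A)
    (h : ∀ v : W9, A * P9 ω v = P9 ω v * A) : ∃ s : F, s ≠ 0 ∧ A = s • 1 := by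
  obtain ⟨s, e, hs, rfl⟩ := exists_P9_of_id hω hA fun v => ⟨1, by rw [one_smul, h v]⟩
  refine ⟨s, hs, ?_⟩
  suffices e = 0 by rw [this, P9_zero]
  refine sym9_nondeg e fun v => ?_
  have hv := h v
  rw [Matrix.smul_mul, Matrix.mul_smul, P9_comm hω e v] at hv
  have hv' := smul_right_injective (Matrix I9 I9 F) hs hv
  have hu : P9 ω v * P9 ω e ≠ 0 := ((isUnit_P9 hω v).mul (isUnit_P9 hω e)).ne_zero
  exact hω.wp_inj (by
    rw [wp_zero]
    exact smul_left_injective F hu (hv'.trans (one_smul F _).symm))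

/-- Unitary standard coordinates. -/
theorem exists_coord_unitary [Finite F] {R : Subgroup (GL (Fin 9) F)} (hF : SqField F q)
    (hconj : ω ^ q = ω ^ 2) (hR : RData ω R)
    (hsim : R ≤ similarityGroup (Cfsg.hermForm 9 F q)) :
    ∃ φ : GL (Fin 9) F ≃* GL I9 F,
      (∀ g : GL (Fin 9) F, Matrix.det (φ g : Matrix I9 I9 F) =
        Matrix.det (g : Matrix (Fin 9) (Fin 9) F)) ∧
      (∀ x : GL I9 F,
        φ.symm x ∈ R ↔ ∃ (t : K3) (v : W9), (x : Matrix I9 I9 F) = wp ω t • P9 ω v) ∧
      ∀ g : GL (Fin 9) F, g ∈ Cfsg.GU 9 F q ↔ Uni q (φ g : Matrix I9 I9 F) := by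
  classical
  have hω := hR.om
  obtain ⟨φ, P, W, hPW, hWP, hφ, hdet, hiff⟩ := hR.exists_coord_inner
  set H : Matrix I9 I9 F := star' q P * P with hH
  have hH' : H * (W * star' q W) = 1 := by
    rw [hH, Matrix.mul_assoc, ← Matrix.mul_assoc P W, hPW, Matrix.one_mul, ← star'_mul hF, hWP,
      star'_one hF]
  have hcomm : ∀ v : W9, H * P9 ω v = P9 ω v * H := by
    intro v
    set Q := P9 ω v with hQ
    set x : GL I9 F := (isUnit_P9 hω v).unit with hx
    have hgR : φ.symm x ∈ R :=
      (hiff x).2 ⟨0, v, by rw [hx, IsUnit.unit_spec, wp_zero, one_smul]⟩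
    obtain ⟨c, hc, hcs⟩ := sim_of_similarity hF (hsim hgR)
    set g : Matrix (Fin 9) (Fin 9) F := (φ.symm x : GL (Fin 9) F).val with hg
    have hgx : W * g * P = Q := by
      rw [hg, ← hφ, φ.apply_symm_apply, hx, IsUnit.unit_spec]
    have hgP : g * P = P * Q := by
      rw [← hgx, ← Matrix.mul_assoc, ← Matrix.mul_assoc, hPW, Matrix.one_mul]
    have h1 : star' q Q * (H * Q) = c • H := by
      calc star' q Q * (H * Q) = star' q (P * Q) * (P * Q) := by
            rw [star'_mul hF, hH]; simp only [Matrix.mul_assoc]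
        _ = star' q P * (star' q g * g) * P := by
            rw [← hgP, star'_mul hF]; simp only [Matrix.mul_assoc]
        _ = c • H := by
            rw [hcs, Matrix.mul_smul, Matrix.mul_one, Matrix.smul_mul]
    have hQu : Q * star' q Q = 1 := mul_eq_one_comm.1 (uni_P9 hF hω hconj v)
    have h2 : H * Q = c • (Q * H) := by
      calc H * Q = Q * star' q Q * (H * Q) := by rw [hQu, Matrix.one_mul]
        _ = c • (Q * H) := by rw [Matrix.mul_assoc, h1, Matrix.mul_smul]
    have hHu : IsUnit H := IsUnit.of_mul_eq_one _ hH'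
    have h3 : c ^ 3 = 1 := conj_cube9 hω hHu h2
    obtain ⟨t, rfl⟩ := hω.exists_wp h3
    -- the multiplier lies in the fixed field
    have hfix : wp ω t ^ q = wp ω t := by
      have h := congrArg (star' q) hcs
      rw [star'_mul hF, star'_star' hF, hcs, star'_smul, star'_one hF] at h
      exact (smul_left_injective F one_ne_zero h).symm
    have ht : t = 0 := by
      rw [wp_pow_q_std hω hconj] at hfix
      have hk : ∀ t : K3, -t = t → t = 0 := by decide
      exact hk t (hω.wp_inj hfix)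
    rw [h2, ht, wp_zero, one_smul]
  obtain ⟨s, hs0, hs⟩ := scalar_of_commute9 hω (IsUnit.of_mul_eq_one _ hH') hcomm
  have hsfix : s ^ q = s := by
    have h := congrArg (star' q) hs
    rw [hH, star'_mul hF, star'_star' hF, ← hH, hs, star'_smul, star'_one hF] at h
    exact (smul_left_injective F one_ne_zero h).symm
  obtain ⟨a, ha⟩ := hF.exists_norm hsfix
  have ha0 : a ≠ 0 := by
    rintro rfl
    rw [zero_pow (by omega)] at ha
    exact hs0 ha.symm
  set P' : Matrix (Fin 9) I9 F := a⁻¹ • P with hP'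
  set W' : Matrix I9 (Fin 9) F := a • W with hW'
  have hP1 : star' q P' * P' = 1 := by
    rw [hP', star'_smul, Matrix.smul_mul, Matrix.mul_smul, ← hH, hs, smul_smul, smul_smul,
      ← pow_succ, inv_pow, ha, inv_mul_cancel₀ hs0, one_smul]
  have hPW' : P' * W' = 1 := by
    rw [hP', hW', Matrix.smul_mul, Matrix.mul_smul, smul_smul, inv_mul_cancel₀ ha0, one_smul, hPW]
  have hWP' : W' * P' = 1 := by
    rw [hP', hW', Matrix.smul_mul, Matrix.mul_smul, smul_smul, mul_inv_cancel₀ ha0, one_smul, hWP]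
  have hWstar : W' = star' q P' := by
    calc W' = star' q P' * P' * W' := by rw [hP1, Matrix.one_mul]
      _ = star' q P' := by rw [Matrix.mul_assoc, hPW', Matrix.mul_one]
  have hφ' : ∀ g : GL (Fin 9) F,
      (φ g : Matrix I9 I9 F) = W' * (g : Matrix (Fin 9) (Fin 9) F) * P' := fun g => by
    rw [hφ, hP', hW', Matrix.smul_mul, Matrix.smul_mul, Matrix.mul_smul, smul_smul,
      mul_inv_cancel₀ ha0, one_smul]
  refine ⟨φ, hdet, hiff, fun g => ?_⟩
  set G₀ : Matrix (Fin 9) (Fin 9) F := (g : Matrix (Fin 9) (Fin 9) F) with hG₀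
  have e : star' q (φ g : Matrix I9 I9 F) * (φ g : Matrix I9 I9 F) =
      W' * (star' q G₀ * G₀) * P' := by
    rw [hφ' g, ← hG₀, star'_mul hF, star'_mul hF, ← hWstar,
      show star' q W' = P' by rw [hWstar, star'_star' hF],
      show W' * (star' q G₀ * P') * (W' * G₀ * P') =
        W' * (star' q G₀ * (P' * W') * G₀) * P' by simp only [Matrix.mul_assoc],
      hPW', Matrix.mul_one]
  rw [mem_GU_iff_star hF, Uni, Uni, e, ← hG₀]
  constructor
  · intro h
    rw [h, Matrix.mul_one, hWP']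
  · intro h
    calc star' q G₀ * G₀ = P' * W' * (star' q G₀ * G₀) * (P' * W') := by
          rw [hPW', Matrix.one_mul, Matrix.mul_one]
      _ = P' * (W' * (star' q G₀ * G₀) * P') * W' := by simp only [Matrix.mul_assoc]
      _ = 1 := by rw [h, Matrix.mul_one, hPW']

end Cfsg.Agent.CSixNineU
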